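import Cfsg.Agent.H21.JU1
import Cfsg.Agent.H06.W0

/-! Part C2 of S5568: vector stabilisers in `3·M₂₂.2` have order prime to `7` and `11` and not divisible by `9`. -/

set_option autoImplicit false
set_option linter.unusedSectionVars false
open Subgroup H01.XT H01.XF Cfsg.Agent.H06.J H21.JU1

namespace H21.WC2
universe u
variable {V : Type u} [AddCommGroup V] [Module (ZMod 2) V] [Finite V] {Γ : Type u} [Group Γ] [Finite Γ]
  {T : Γ → V →+ V} {d : Γ} {M K Y : Subgroup Γ} {β : V →+ V →+ ZMod 2} {q : V → ZMod 2} {B : AddSubgroup V}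

theorem md (p : ℕ) [Fact p.Prime] (f : V → V) (hf : ∀ v, f^[p] v = v) (s : Set V) (hs : ∀ v ∈ s, f v ∈ s) :
    Nat.card s ≡ Nat.card {v | v ∈ s ∧ f v = v} [MOD p] := by
  classical
  have := Fintype.ofFinite s
  let g : Function.End s := fun x => ⟨f x, hs _ x.2⟩
  have e : ∀ n x, ((g ^ n) x : V) = f^[n] x := fun n => by
    induction n with
    | zero => exact fun _ => rfl
    | succ n i => exact fun x => by rw [pow_succ]; exact i (g x)
  have := Equiv.Perm.card_fixedPoints_modEq (f := g) (p := p) (n := 1) (funext fun x => Subtype.ext (by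
    rw [pow_one, e, hf]; rfl))
  rw [← Nat.card_eq_fintype_card, ← Nat.card_eq_fintype_card] at this
  refine this.trans ?_
  rw [Nat.card_congr ((Equiv.subtypeEquivRight (p := fun x : s => x ∈ Function.fixedPoints g) (q := fun x : s => f x = x)
    fun x => Subtype.ext_iff).trans (Equiv.subtypeSubtypeEquivSubtypeInter (· ∈ s) fun v => f v = v))]
  rfl

theorem trf {H : Type u} [Group H] [Finite H] (K : Subgroup H) (d : H) (cen : ∀ g, g * d = d * g) (dc : d ∈ commutator H)
    (d3 : d ^ 3 = 1) (n : ¬ 3 ∣ K.index) : d ∈ ⁅K, K⁆ := by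
  have a1 := MonoidHom.transfer_eq_pow (Abelianization.of : K →* _) d fun k g _ => by
    rw [mul_assoc, ← ((show Commute g d from cen g).pow_right k).eq, inv_mul_cancel_left]
  rw [MonoidHom.mem_ker.1 (Abelianization.commutator_subset_ker (MonoidHom.transfer (Abelianization.of : K →* _)) dc),
    eq_comm, ← MonoidHom.mem_ker, Abelianization.ker_of] at a1
  have a2 : d ^ K.index ∈ ⁅K, K⁆ := map_subtype_commutator K ▸ ⟨_, a1, rfl⟩
  have a3 := pow_mem a2 K.index
  have : K.index * K.index % 3 = 1 := by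
    rw [Nat.mul_mod]
    have : K.index % 3 = 1 ∨ K.index % 3 = 2 := by omega
    rcases this with e | e <;> rw [e]
  rwa [← pow_mul, pow_eq_pow_mod _ d3, this, pow_one] at a3

theorem it (g : Gj T d M β q) (f : Γ) (n : ℕ) (v : V) : (T f)^[n] v = T (f ^ n) v := by
  induction n with
  | zero => rw [pow_zero, g.one]; rfl
  | succ n i => rw [Function.iterate_succ_apply', i, ← g.mul, pow_succ']

theorem c2 : Cfsg.Agent.H06.W.C2Stmt.{u} := by
  intro V _ _ _ Γ _ _ T d M K Y β q B g dc p v vB v0 P hP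
  have w3 : ∀ v, T d (T d (T d v)) = v := fun v => by rw [← g.mul d d v, ← g.mul, g.d3, g.one]
  have d3 : d ^ 3 = 1 := by rw [pow_three, g.d3]
  have el : ∀ r k : ℕ, r.Prime → 2 * k = r + 1 → r ∣ Nat.card P → ∃ f ∈ M, f ≠ 1 ∧ f ^ r = 1 ∧ T f v = v := fun r k hr e h => by
    have : Fact r.Prime := ⟨hr⟩
    obtain ⟨f, hf⟩ := exists_prime_orderOf_dvd_card' r h
    have o : orderOf (f : Γ) = r := (orderOf_coe f).trans hf
    have o' : (f : Γ) ^ r = 1 := by rw [← o, pow_orderOf_eq_one]
    refine ⟨f, ?_, fun e => hr.one_lt.ne (by rw [← o, e, orderOf_one]), o', hP f f.2⟩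
    have := pow_mem (sq_mem_of_index_two g.Mi (f : Γ)) k
    rwa [← pow_mul, e, pow_succ, o', one_mul] at this
  have cw : ∀ f ∈ M, ∀ v, T d (T f v) = T f (T d v) := fun f hf v => by rw [← g.mul, ← g.mul, g.Md f hf]
  refine ⟨fun h => ?_, fun h => ?_, fun h => ?_⟩
  · obtain ⟨f, fM, f1, fr, fv⟩ := el 7 4 (by norm_num) rfl h
    obtain ⟨u, hu⟩ : ∃ u, T f u ≠ u := by
      by_contra! o
      exact f1 (g.fai f o)
    exact v0 ((g.toQF.fpf (ω := T d) (Y := T f) w3 (fun v => (it g f 7 v).trans (by rw [fr, g.one])) (cw f fM) (g.qT d) (g.qT f)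
      (g.hf u) hu v).2 fv)
  · obtain ⟨f, fM, f1, fr, fv⟩ := el 11 6 (by norm_num) rfl h
    have : Fact (Nat.Prime 11) := ⟨by norm_num⟩
    have hf : ∀ v, (T f)^[11] v = v := fun v => (it g f 11 v).trans (by rw [fr, g.one])
    let U : AddSubgroup V :=
      { carrier := {v | T f v = v}
        zero_mem' := map_zero _
        add_mem' := fun {a b} (ha : T f a = a) (hb : T f b = b) => show T f (a + b) = a + b by rw [map_add, ha, hb]
        neg_mem' := fun {a} (ha : T f a = a) => show T f (-a) = -a by rw [map_neg, ha] }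
    obtain ⟨k, hk, c1, c2⟩ := cpp g.toQF U
    have m1 := md 11 (T f) hf Set.univ fun _ _ => trivial
    rw [Nat.card_congr (Equiv.Set.univ V), g.card, show {v | v ∈ Set.univ ∧ T f v = v} = (U : Set V) from
      Set.ext fun _ => ⟨fun a => a.2, fun a => ⟨trivial, a⟩⟩] at m1
    change 4096 ≡ Nat.card U [MOD 11] at m1
    have k2 : k = 2 ∨ k = 12 := by
      rw [c1] at m1
      interval_cases k <;> simp_all [Nat.ModEq]
    rcases k2 with rfl | rfl
    · have m2 := cnt 3 (T d) w3 (U ⊓ B : AddSubgroup V) (zero_mem _) (map_zero _)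
        (fun v hv => ⟨show T f (T d v) = T d v by rw [← cw f fM, show T f v = v from hv.1], p.Bω v hv.2⟩) fun v _ => fw g
      change Nat.card (U ⊓ B : AddSubgroup V) ≡ 1 [MOD 3] at m2
      have g2 := grow (U := ⊥) (W := U ⊓ B) bot_le (⟨fv, vB⟩ : v ∈ U ⊓ B) v0
      have l4 := AddSubgroup.card_le_of_le (inf_le_left : U ⊓ B ≤ U)
      rw [AddSubgroup.card_bot] at g2
      have e := AddSubgroup.eq_of_le_of_card_ge (inf_le_left : U ⊓ B ≤ U) (by unfold Nat.ModEq at m2; omega)
      have UB : ∀ u ∈ U, u ∈ B := fun u hu => (e.ge hu).2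
      have m3 := md 11 (T f) hf (pp β U) fun w hw u hu => by
        rw [← show T f u = u from hu, g.toQF.inv (g.qT f)]; exact hw u hu
      rw [show {v | v ∈ (pp β U : Set V) ∧ T f v = v} = (U : Set V) from Set.ext fun w => ⟨fun a => a.2, fun a => ⟨fun u hu => by
        have := g.pol u w
        rw [p.qB _ (add_mem (UB u hu) (UB w a)), p.qB _ (UB u hu), p.qB _ (UB w a)] at this
        simpa using this.symm, a⟩⟩] at m3
      change Nat.card (pp β U) ≡ Nat.card U [MOD 11] at m3
      rw [c1, c2] at m3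
      exact absurd m3 (by decide)
    · have := AddSubgroup.eq_top_of_card_eq U (by rw [c1, g.card]; norm_num)
      exact f1 (g.fai f fun v => this.ge (AddSubgroup.mem_top v))
  · letI : MulAction Γ V := { smul := fun k v => T k v, one_smul := g.one, mul_smul := g.mul }
    let J : Subgroup Γ :=
      { carrier := {k | k ∈ M ∧ ∃ i : ℕ, T k v = T (d ^ i) v}
        one_mem' := ⟨one_mem _, 0, by rw [pow_zero]⟩
        mul_mem' := by
          rintro a b ⟨ha, i, hi⟩ ⟨hb, j, hj⟩
          exact ⟨mul_mem ha hb, j + i, by rw [g.mul, hj, cp g ha, hi, ← g.mul, pow_add]⟩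
        inv_mem' := by
          rintro a ⟨ha, i, hi⟩
          refine ⟨inv_mem ha, 2 * i, ?_⟩
          have : T a (T (d ^ (2 * i)) v) = v := by
            rw [cp g ha, hi, ← g.mul, ← pow_add, show 2 * i + i = 3 * i by ring, pow_mul, d3, one_pow, g.one]
          conv_lhs => rw [← this, li g] }
    have JM : J ≤ M := fun k hk => hk.1
    have dJ : d ∈ J := ⟨g.dM, 1, by rw [pow_one]⟩
    have c3 : 3 ∣ (MulAction.stabilizer J v).index := by
      rw [MulAction.index_stabilizer, ← Nat.card_coe_set_eq]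
      have : Fact (Nat.Prime 3) := ⟨by norm_num⟩
      have m := md 3 (T d) w3 (MulAction.orbit J v) (by
        rintro _ ⟨k, rfl⟩
        exact ⟨⟨d, dJ⟩ * k, g.mul d k v⟩)
      rw [show {w | w ∈ MulAction.orbit J v ∧ T d w = w} = ∅ from Set.eq_empty_of_forall_notMem (by
        rintro _ ⟨⟨k, rfl⟩, e⟩
        have e' : T k v = 0 := fw g e
        exact v0 (by rw [← li g k v, e', map_zero]))] at m
      exact (Nat.modEq_zero_iff_dvd).1 (by simpa using m)
    have c9 : 9 ∣ Nat.card (MulAction.stabilizer J v) := by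
      have l : P ⊓ M ≤ J := fun k hk => ⟨hk.2, 0, by rw [pow_zero, g.one, hP k hk.1]⟩
      have a : 9 ∣ Nat.card (P ⊓ M : Subgroup Γ) := by
        have e := (M.subgroupOf P).index_mul_card
        have : M.Normal := normal_of_index_eq_two g.Mi
        have i2 : (M.subgroupOf P).index ∣ 2 := g.Mi ▸ relIndex_dvd_index_of_normal M P
        rw [← inf_subgroupOf_right, Nat.card_congr (subgroupOfEquivOfLe inf_le_right).toEquiv, inf_subgroupOf_right, inf_comm] at e
        rw [← e] at h
        exact (Nat.Coprime.coprime_dvd_right i2 (by norm_num : Nat.Coprime 9 2)).dvd_of_dvd_mul_left h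
      rw [← Nat.card_congr (subgroupOfEquivOfLe l).toEquiv] at a
      exact a.trans (card_dvd_of_le fun k hk => hP k hk.1)
    have c27 : 27 ∣ Nat.card J := by
      rw [← (MulAction.stabilizer J v).index_mul_card]
      exact Nat.mul_dvd_mul c3 c9
    have cM : Nat.card M = 1330560 := by
      have := M.index_mul_card
      rw [g.Mi, g.cΓ] at this
      omega
    have n3 : ¬ 3 ∣ (J.subgroupOf M).index := fun o => by
      have e := (J.subgroupOf M).index_mul_card
      rw [Nat.card_congr (subgroupOfEquivOfLe JM).toEquiv, cM] at e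
      exact absurd (e ▸ Nat.mul_dvd_mul o c27) (by norm_num)
    have t := trf (J.subgroupOf M) ⟨d, g.dM⟩ (fun k => Subtype.ext (g.Md k k.2)) (by
      rw [← map_subtype_commutator] at dc
      obtain ⟨x, hx, rfl⟩ := dc
      exact hx) (Subtype.ext d3) n3
    have t' : d ∈ ⁅J, J⁆ := by
      have := mem_map_of_mem M.subtype t
      rwa [map_commutator, subgroupOf_map_subtype, inf_eq_left.2 JM] at this
    exact v0 (noline g JM t' fun k hk => hk.2)

end H21.WC2
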