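import Cfsg.Agent.H06.J0

/-! Part U1 of S5566: the fixed space of `Y` and the invariant subspaces of the hexad subgroup. -/

set_option autoImplicit false
set_option linter.unusedSectionVars false
open Subgroup H01.XT Cfsg.Agent.H06.J

namespace H21.JU1
universe u
variable {V : Type u} [AddCommGroup V] [Module (ZMod 2) V] [Finite V] {Γ : Type u} [Group Γ] [Finite Γ]
  {T : Γ → V →+ V} {d : Γ} {M K Y : Subgroup Γ} {β : V →+ V →+ ZMod 2} {q : V → ZMod 2}

theorem li (g : Gj T d M β q) (k : Γ) (v : V) : T k⁻¹ (T k v) = v := by rw [← g.mul, inv_mul_cancel, g.one]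
theorem ri (g : Gj T d M β q) (k : Γ) (v : V) : T k (T k⁻¹ v) = v := by rw [← g.mul, mul_inv_cancel, g.one]

theorem fw (g : Gj T d M β q) {v : V} (e : T d v = v) : v = 0 := by
  have := g.hf v
  rw [e, e] at this
  exact lc this

theorem cp (g : Gj T d M β q) {k : Γ} (hk : k ∈ M) (i : ℕ) (v : V) : T k (T (d ^ i) v) = T (d ^ i) (T k v) := by
  rw [← g.mul, ← g.mul, ((show Commute k d from g.Md k hk).pow_right i).eq]

theorem noline (g : Gj T d M β q) (KM : K ≤ M) (dc : d ∈ ⁅K, K⁆) {x : V} (h : ∀ k ∈ K, ∃ i : ℕ, T k x = T (d ^ i) x) : x = 0 := by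
  let S : Subgroup Γ :=
    { carrier := {k | T k x = x}
      one_mem' := g.one x
      mul_mem' := fun {a b} (ha : T a x = x) (hb : T b x = x) => show T (a * b) x = x by rw [g.mul, hb, ha]
      inv_mem' := fun {a} (ha : T a x = x) => show T a⁻¹ x = x by conv_lhs => rw [← ha, li g] }
  have : ⁅K, K⁆ ≤ S := commutator_le.2 fun a ha b hb => by
    obtain ⟨i, hi⟩ := h _ (inv_mem ha)
    obtain ⟨j, hj⟩ := h _ (inv_mem hb)
    have e : T a⁻¹ (T b⁻¹ x) = T b⁻¹ (T a⁻¹ x) := by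
      rw [hj, hi, cp g (KM (inv_mem ha)), cp g (KM (inv_mem hb)), hi, hj, ← g.mul, ← g.mul, ← pow_add, ← pow_add, add_comm]
    show T (a * b * a⁻¹ * b⁻¹) x = x
    rw [g.mul, g.mul, g.mul, e, ri g, ri g]
  exact fw g (this dc)

theorem fixY (g : Gj T d M β q) (x : Hx d K Y) {W : AddSubgroup V} (hW : ∀ k ∈ K, ∀ v ∈ W, T k v ∈ W) (n : W ≠ ⊥) :
    ∃ v ∈ W, v ≠ 0 ∧ ∀ y ∈ Y, T y v = v := by
  letI : MulAction Y W :=
    { smul := fun y v => ⟨T y v, hW _ (x.YK y.2) _ v.2⟩
      one_smul := fun v => Subtype.ext (g.one _)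
      mul_smul := fun a b v => Subtype.ext (g.mul _ _ _) }
  have p : IsPGroup 2 Y := IsPGroup.of_card (n := 4) x.cY
  have dv : Nat.card W ∣ 2 ^ 12 := by have := W.card_addSubgroup_dvd_card; rwa [g.card] at this
  obtain ⟨k, -, e⟩ := (Nat.dvd_prime_pow Nat.prime_two).1 dv
  have k0 : k ≠ 0 := by
    rintro rfl
    exact n (AddSubgroup.card_eq_one.1 e)
  obtain ⟨b, hb, ne⟩ := p.exists_fixed_point_of_prime_dvd_card_of_fixed_point W (e ▸ dvd_pow_self 2 k0) (a := 0)
    fun y => Subtype.ext (map_zero (T y))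
  exact ⟨b, b.2, fun e => ne (Subtype.ext e.symm), fun y hy => congrArg Subtype.val (hb ⟨y, hy⟩)⟩

theorem big (g : Gj T d M β q) (x : Hx d K Y) (KM : K ≤ M) (dc : d ∈ ⁅K, K⁆) {W : AddSubgroup V}
    (hW : ∀ k ∈ K, ∀ v ∈ W, T k v ∈ W) (n : W ≠ ⊥) : 16 < Nat.card W := by
  by_contra! c
  obtain ⟨v, vW, v0, vY⟩ := fixY g x hW n
  have d3 : d ^ 3 = 1 := by rw [pow_three, g.d3]
  letI : MulAction Γ V := { smul := fun k v => T k v, one_smul := g.one, mul_smul := g.mul }
  let J : Subgroup Γ :=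
    { carrier := {k | k ∈ K ∧ ∃ i : ℕ, T k v = T (d ^ i) v}
      one_mem' := ⟨one_mem _, 0, by rw [pow_zero]⟩
      mul_mem' := by
        rintro a b ⟨ha, i, hi⟩ ⟨hb, j, hj⟩
        exact ⟨mul_mem ha hb, j + i, by rw [g.mul, hj, cp g (KM ha), hi, ← g.mul, pow_add]⟩
      inv_mem' := by
        rintro a ⟨ha, i, hi⟩
        refine ⟨inv_mem ha, 2 * i, ?_⟩
        have : T a (T (d ^ (2 * i)) v) = v := by
          rw [cp g (KM ha), hi, ← g.mul, ← pow_add, show 2 * i + i = 3 * i by ring, pow_mul, d3, one_pow, g.one]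
        conv_lhs => rw [← this, li g] }
  have JK : J ≤ K := fun k hk => hk.1
  have ix : ∀ H ≤ K, (MulAction.stabilizer Γ v ⊓ K).relIndex H = (MulAction.orbit H v).ncard := fun H l => by
    rw [← MulAction.index_stabilizer, relIndex]
    congr 1
    ext k
    exact ⟨fun a => a.1, fun a => ⟨a, l k.2⟩⟩
  have e := relIndex_mul_relIndex (MulAction.stabilizer Γ v ⊓ K) J K (fun k hk => ⟨hk.2, 0, by rw [pow_zero, g.one]; exact hk.1⟩) JK
  rw [ix J JK, ix K le_rfl] at e
  have dJ : d ∈ J := ⟨x.dK, 1, by rw [pow_one]⟩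
  have c1 : (MulAction.orbit K v).ncard ≤ 15 := by
    have s : MulAction.orbit K v ⊆ (W : Set V) \ {0} := by
      rintro _ ⟨k, rfl⟩
      refine ⟨hW k k.2 v vW, fun e => v0 ?_⟩
      have e' : T k v = 0 := e
      rw [← li g k v, e', map_zero]
    have a := Set.ncard_le_ncard s
    have b := Set.ncard_diff_singleton_add_one (s := (W : Set V)) (a := 0) W.zero_mem
    have c' : (W : Set V).ncard = Nat.card W := (Nat.card_coe_set_eq _).symm
    omega
  have c2 : 3 ≤ (MulAction.orbit J v).ncard := by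
    have n1 : v ≠ T d v := fun e => v0 (fw g e.symm)
    have n2 : T d v ≠ T d (T d v) := fun e => n1 (by have := congrArg (T d⁻¹) e; rwa [li g, li g] at this)
    have n3 : v ≠ T d (T d v) := fun e => n1 (by
      have : T d v = T d (T d (T d v)) := congrArg (T d) e
      rw [← g.mul d d v, ← g.mul, g.d3, g.one] at this
      exact this.symm)
    rw [← (Set.ncard_eq_three.2 ⟨v, T d v, T d (T d v), n1, n3, n2, rfl⟩ : ({v, T d v, T d (T d v)} : Set V).ncard = 3)]
    refine Set.ncard_le_ncard ?_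
    rintro _ (rfl | rfl | rfl)
    · exact MulAction.mem_orbit_self _
    · exact ⟨⟨d, dJ⟩, rfl⟩
    · exact ⟨⟨d * d, mul_mem dJ dJ⟩, g.mul d d v⟩
  have c3 : J.relIndex K ≤ 5 := by
    by_contra! o
    have := Nat.mul_le_mul c2 o
    omega
  exact v0 (noline g KM dc fun k hk => (x.s1 J JK (fun y hy => ⟨x.YK hy, 0, by rw [pow_zero, g.one, vY y hy]⟩) dJ c3 hk).2)

/-- the orthogonal complement -/
def pp (β : V →+ V →+ ZMod 2) (W : AddSubgroup V) : AddSubgroup V where
  carrier := {v | ∀ u ∈ W, β u v = 0}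
  zero_mem' := fun u _ => map_zero _
  add_mem' := fun {a b} ha hb u hu => by rw [map_add, ha u hu, hb u hu, add_zero]
  neg_mem' := fun {a} ha u hu => by rw [map_neg, ha u hu, neg_zero]

theorem cpp (h : H01.XF.QF β q) (W : AddSubgroup V) : ∃ k ≤ 12, Nat.card W = 2 ^ k ∧ Nat.card (pp β W) = 2 ^ (12 - k) := by
  let B : LinearMap.BilinForm (ZMod 2) V := LinearMap.mk₂ (ZMod 2) (fun u v => β u v) (by simp)
    (fun c u v => ZMod.map_smul (β.flip v) c u) (by simp) fun c u v => ZMod.map_smul (β u) c v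
  let S := AddSubgroup.toZModSubmodule 2 W
  have a := LinearMap.BilinForm.finrank_orthogonal (B := B)
    ⟨fun u m => h.nd u m, fun u m => h.nd u fun v => (h.sym _ _).trans (m v)⟩ S
  have b := Module.natCard_eq_pow_finrank (K := ZMod 2) (V := V)
  have c : Nat.card W = _ := Module.natCard_eq_pow_finrank (K := ZMod 2) (V := S)
  have c' : Nat.card (pp β W) = _ := Module.natCard_eq_pow_finrank (K := ZMod 2) (V := B.orthogonal S)
  rw [h.card, Nat.card_zmod] at b
  have e : Module.finrank (ZMod 2) V = 12 := (Nat.pow_right_injective le_rfl (b.symm.trans (by norm_num : 4096 = 2 ^ 12)))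
  rw [Nat.card_zmod] at c c'
  exact ⟨_, e ▸ Submodule.finrank_le S, c, by rw [c', a, e]⟩

theorem ppK (g : Gj T d M β q) {W : AddSubgroup V} (hW : ∀ k ∈ K, ∀ v ∈ W, T k v ∈ W) : ∀ k ∈ K, ∀ v ∈ pp β W, T k v ∈ pp β W :=
  fun k hk v hv u hu => by
    rw [← ri g k u, g.toQF.inv (g.qT k)]
    exact hv _ (hW _ (inv_mem hk) u hu)

theorem w64 (g : Gj T d M β q) (x : Hx d K Y) (KM : K ≤ M) (dc : d ∈ ⁅K, K⁆) (W : AddSubgroup V)
    (hW : ∀ k ∈ K, ∀ v ∈ W, T k v ∈ W) : W = ⊥ ∨ W = ⊤ ∨ Nat.card W = 64 := by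
  by_contra! o
  obtain ⟨n1, n2, n3⟩ := o
  obtain ⟨k, hk, c1, c2⟩ := cpp g.toQF W
  have b1 := big g x KM dc hW n1
  have b2 := big g x KM dc (ppK g hW) fun e => n2 (AddSubgroup.eq_top_of_card_eq W (by
    rw [e, AddSubgroup.card_bot] at c2
    have : k = 12 := by
      have := Nat.pow_eq_one.1 c2.symm
      omega
    rw [c1, this, g.card]; norm_num))
  have m := cnt 3 (T d) (fun v => by
    show T d (T d (T d v)) = v
    rw [← g.mul d d v, ← g.mul, g.d3, g.one]) W W.zero_mem (map_zero _) (hW d x.dK) fun v _ => fw g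
  change Nat.card W ≡ 1 [MOD 3] at m
  rw [c1] at b1 n3 m
  rw [c2] at b2
  interval_cases k <;> simp_all [Nat.ModEq]

theorem u1 : U1Stmt.{u} := by
  intro V _ _ _ Γ _ _ T d M K Y β q g x KM dc
  let B : AddSubgroup V :=
    { carrier := {v | ∀ y ∈ Y, T y v = v}
      zero_mem' := fun y _ => map_zero _
      add_mem' := fun {a b} ha hb y hy => by rw [map_add, ha y hy, hb y hy]
      neg_mem' := fun {a} ha y hy => by rw [map_neg, ha y hy] }
  have KB : ∀ k ∈ K, ∀ v ∈ B, T k v ∈ B := fun k hk v hv y hy => by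
    have := hv _ (x.nY _ (inv_mem hk) y hy)
    rw [inv_inv, g.mul, g.mul] at this
    rw [← ri g k (T y (T k v)), this]
  have nt : B ≠ ⊤ := fun e => by
    have : Y = ⊥ := eq_bot_iff.2 fun y hy => g.fai y fun v => (e.ge (AddSubgroup.mem_top v) : v ∈ B) y hy
    have c := x.cY
    rw [this, card_bot] at c
    omega
  have nb : ∀ W : AddSubgroup V, (∀ k ∈ K, ∀ v ∈ W, T k v ∈ W) → W ≠ ⊥ → B ⊓ W ≠ ⊥ := fun W hW n e => by
    obtain ⟨v, a, b, c⟩ := fixY g x hW n
    exact b (e.le (⟨c, a⟩ : v ∈ B ⊓ W))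
  have n0 : B ≠ ⊥ := by
    have := nb ⊤ (fun _ _ _ _ => trivial) fun e => by
      have c := g.card
      rw [← AddSubgroup.card_top, e, AddSubgroup.card_bot] at c
      omega
    rwa [inf_top_eq] at this
  have cB : Nat.card B = 64 := ((w64 g x KM dc B KB).resolve_left n0).resolve_left nt
  have iso : ∀ u ∈ B, ∀ v ∈ B, β u v = 0 := by
    obtain ⟨k, hk, c1, c2⟩ := cpp g.toQF B
    have k6 : k = 6 := Nat.pow_right_injective le_rfl (c1.symm.trans (cB.trans (by norm_num)))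
    have n1 := nb _ (ppK g KB) fun e => by
      rw [e, AddSubgroup.card_bot, k6] at c2
      omega
    have c3 := ((w64 g x KM dc (B ⊓ pp β B) fun k hk v hv => ⟨KB k hk v hv.1, ppK g KB k hk v hv.2⟩).resolve_left n1).resolve_left
      fun e => nt (top_le_iff.1 (e.ge.trans inf_le_left))
    have e := AddSubgroup.eq_of_le_of_card_ge (inf_le_left : B ⊓ pp β B ≤ B) (by rw [c3, cB])
    exact fun u hu v hv => (e.ge hv).2 u hu
  refine ⟨B, cB, fun v hv => ?_, KB d x.dK, fun _ => Iff.rfl, KB, fun y hy v => ?_, w64 g x KM dc⟩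
  · have e : v = T d v + T d (T d v) := lc (g.hf v)
    have := g.pol (T d v) (T d (T d v))
    rw [← e, g.qT, g.qT, g.qT, iso _ (KB d x.dK v hv) _ (KB d x.dK _ (KB d x.dK v hv))] at this
    exact lc this
  · refine g.toQF.perp iso (by rw [cB]; norm_num) fun u hu => ?_
    rw [map_add, AddMonoidHom.add_apply]
    conv_lhs => rw [← hu y hy, g.toQF.inv (g.qT y)]
    rw [hu y hy]
    exact lc0

end H21.JU1
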