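import Mathlib
import Cfsg.Agent.H18.FC1
import Cfsg.Agent.H27.FrobConstr

/-!
# Frobenius complements from arbitrary fixed-point-free additive actions (namespace `H21`)

* `frob_of_isFC` : `H18.IsFC G` gives a Frobenius group in `Type` with complement `≃* G`;
* `isFC_of_add` : a fixed-point-free action on any nontrivial abelian group gives `H18.IsFC G`;
* `exists_sq_add_sq_odd` : `a² + b² ≡ -1` is solvable modulo every odd number;
* `isSquare_card_of_quat` : an odd abelian group with a quaternion pair of endomorphisms has square order.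
-/

set_option autoImplicit false

namespace H21

open H18

theorem frob_of_isFC {G : Type*} [Group G] [Finite G] [Nontrivial G] (h : IsFC G) :
    ∃ (L : Type) (_ : Group L) (_ : Finite L) (H : Subgroup L),
      Cfsg.IsFrobeniusComplement H ∧ Nonempty (G ≃* H) := by
  let e : Shrink.{0} G ≃* G := Shrink.mulEquiv
  obtain ⟨K, _, _, _, φ, hφ⟩ := h.of_equiv e
  haveI : Finite (Shrink.{0} G) := Finite.of_equiv _ e.symm.toEquiv
  haveI := e.toEquiv.nontrivial
  haveI : Finite (K ⋊[φ] Shrink.{0} G) := Finite.of_equiv _ (SemidirectProduct.equivProd).symm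
  exact ⟨K ⋊[φ] Shrink.{0} G, inferInstance, inferInstance, _, H27.isFrob_range_inr φ hφ,
    ⟨e.symm.trans (MonoidHom.ofInjective SemidirectProduct.inr_injective)⟩⟩

theorem isFC_of_fin {G V : Type*} [Group G] [AddCommGroup V] [Finite V] [Nontrivial V] (ρ : Representation ℤ G V)
    (h : ∀ g, g ≠ 1 → ∀ v, ρ g v = v → v = 0) : IsFC G :=
  IsFC.of_lin (R := ℤ) ((LinearMap.GeneralLinearGroup.generalLinearEquiv ℤ V).toMonoidHom.comp ρ.toHomUnits)
    fun v hv g e => by_contra fun hg => hv (h g hg v e)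

theorem isFC_of_fg {G V : Type*} [Group G] [Finite G] [AddCommGroup V] [Module.Finite ℤ V] [Nontrivial V]
    (ρ : Representation ℤ G V) (h : ∀ g, g ≠ 1 → ∀ v, ρ g v = v → v = 0) : IsFC G := by
  rcases finite_or_infinite V with hV | hV
  · exact isFC_of_fin ρ h
  obtain ⟨p, hp1, hp⟩ := Nat.exists_infinite_primes (Nat.card G + 1)
  let S : Submodule ℤ V := LinearMap.range ((p : ℤ) • LinearMap.id)
  have hS : ∀ v, (p : ℤ) • v ∈ S := fun v => ⟨v, rfl⟩
  have hinv : ∀ g, S ≤ S.comap (ρ g) := by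
    rintro g _ ⟨v, rfl⟩
    exact ⟨ρ g v, by simp⟩
  have hp0 : (p : ℤ) ≠ 0 := by exact_mod_cast hp.ne_zero
  haveI : Finite (V ⧸ S) := Module.finite_of_fg_torsion _ fun x => by
    obtain ⟨v, rfl⟩ := S.mkQ_surjective x
    exact ⟨⟨p, mem_nonZeroDivisors_of_ne_zero hp0⟩, by
      show (p : ℤ) • S.mkQ v = 0
      rw [← map_smul]; exact (Submodule.Quotient.mk_eq_zero S).2 (hS v)⟩
  haveI : Nontrivial (V ⧸ S) := Submodule.Quotient.nontrivial_iff.2 fun e => by
    obtain ⟨r, hr, hr0⟩ := Submodule.exists_sub_one_mem_and_smul_eq_zero_of_fg_of_le_smul (Ideal.span {(p : ℤ)})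
      (⊤ : Submodule ℤ V) Module.Finite.fg_top fun v _ => by
        obtain ⟨w, rfl⟩ : v ∈ S := e ▸ Submodule.mem_top
        exact Submodule.smul_mem_smul (Ideal.mem_span_singleton_self _) Submodule.mem_top
    have h1 : r ≠ 0 := by
      rintro rfl
      rw [zero_sub, neg_mem_iff, Ideal.mem_span_singleton] at hr
      exact hp.ne_one (Nat.dvd_one.1 (by exact_mod_cast hr))
    haveI : Finite V := Module.finite_of_fg_torsion _ fun v => ⟨⟨r, mem_nonZeroDivisors_of_ne_zero h1⟩, hr0 v trivial⟩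
    exact not_finite V
  refine isFC_of_fin (ρ.quotient S hinv) fun g hg x hx => ?_
  obtain ⟨v, rfl⟩ := S.mkQ_surjective x
  have h1 : ∀ i : ℕ, S.mkQ (ρ (g ^ i) v) = S.mkQ v := fun i => by
    induction i with
    | zero => simp
    | succ i ih =>
      have : S.mkQ (ρ (g ^ (i + 1)) v) = ρ.quotient S hinv g (S.mkQ (ρ (g ^ i) v)) := by
        rw [pow_succ', map_mul]; rfl
      rw [this, ih, hx]
  have h2 : ∑ i ∈ Finset.range (orderOf g), ρ (g ^ i) v = 0 := h g hg _ (by
    rw [map_sum]
    have := Finset.sum_range_succ' (fun i => ρ (g ^ i) v) (orderOf g)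
    rw [Finset.sum_range_succ, pow_orderOf_eq_one, pow_zero, add_left_inj] at this
    rw [this]
    exact Finset.sum_congr rfl fun i _ => by rw [pow_succ', map_mul]; rfl)
  have h3 : (orderOf g : ℤ) • S.mkQ v = 0 := by
    have := congrArg S.mkQ h2
    rw [map_sum, Finset.sum_congr rfl fun i _ => h1 i] at this
    simpa using this
  have h4 : (p : ℤ) • S.mkQ v = 0 := by rw [← map_smul]; exact (Submodule.Quotient.mk_eq_zero S).2 (hS v)
  have h5 : IsCoprime (p : ℤ) (orderOf g) := Nat.isCoprime_iff_coprime.2 (hp.coprime_iff_not_dvd.2 fun hd => by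
    have := Nat.le_of_dvd Nat.card_pos (hd.trans (orderOf_dvd_natCard g))
    omega)
  obtain ⟨a, b, hab⟩ := h5
  rw [← one_smul ℤ (S.mkQ v), ← hab, add_smul, mul_smul, mul_smul, h3, h4, smul_zero, smul_zero, add_zero]

theorem isFC_of_add {G V : Type*} [Group G] [Finite G] [AddCommGroup V] [Nontrivial V]
    (ρ : Representation ℤ G V) (h : ∀ g, g ≠ 1 → ∀ v, ρ g v = v → v = 0) : IsFC G := by
  obtain ⟨v, hv⟩ := exists_ne (0 : V)
  let S : Submodule ℤ V := Submodule.span ℤ (Set.range fun g => ρ g v)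
  have hinv : ∀ g, S ≤ S.comap (ρ g) := fun g => Submodule.span_le.2 (by
    rintro _ ⟨k, rfl⟩
    exact Submodule.subset_span ⟨g * k, by simp only [map_mul]; rfl⟩)
  haveI : Module.Finite ℤ S := Module.Finite.span_of_finite _ (Set.finite_range _)
  haveI : Nontrivial S := ⟨⟨v, Submodule.subset_span ⟨1, by simp⟩⟩, 0, fun e => hv (congrArg Subtype.val e)⟩
  exact isFC_of_fg (ρ.subrepresentation S hinv) fun g hg w e => Subtype.ext (h g hg w (congrArg Subtype.val e))

theorem exists_sq_add_sq_odd {n : ℕ} (hn : Odd n) : ∃ a b : ℤ, (n : ℤ) ∣ a ^ 2 + b ^ 2 + 1 := by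
  obtain ⟨k, rfl⟩ := hn
  obtain ⟨p, -, hp, h⟩ := Nat.forall_exists_prime_gt_and_zmodEq 0 (q := 4 * (2 * k + 1)) (a := 4 * k + 1) (by omega)
    ⟨-(4 * k + 3), 2 * k + 1, by push_cast; ring⟩
  haveI := Fact.mk hp
  obtain ⟨c, hc⟩ := h.symm.dvd
  have h4 : (p : ℤ) = 4 * (k + (2 * k + 1) * c) + 1 := by push_cast at hc; linear_combination hc
  obtain ⟨a, b, hab⟩ := Nat.Prime.sq_add_sq (p := p) (by omega)
  refine ⟨a, b, 4 * c + 2, ?_⟩
  have : (a : ℤ) ^ 2 + b ^ 2 = p := by exact_mod_cast hab
  push_cast at hc ⊢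
  linear_combination this + hc

theorem isSquare_card_of_quat {V : Type*} [AddCommGroup V] [Finite V] (hV : Odd (Nat.card V)) (I J : Module.End ℤ V)
    (hI : I * I = -1) (hJ : J * J = -1) (hIJ : I * J = -(J * I)) : IsSquare (Nat.card V) := by
  obtain ⟨a, b, c, hc⟩ := exists_sq_add_sq_odd hV
  have h0 : ∀ v : V, (Nat.card V : ℤ) • v = 0 := fun v => by rw [natCast_zsmul, card_nsmul_eq_zero']
  set E := a • I + b • J with hE
  have hEE : ∀ v, E (E v) = v := fun v => by
    have h1 : E * E = -(a ^ 2 + b ^ 2 : ℤ) • (1 : Module.End ℤ V) := by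
      simp only [hE, add_mul, mul_add, smul_mul_assoc, mul_smul_comm, hI, hJ, hIJ]
      module
    have h2 : E (E v) = -(a ^ 2 + b ^ 2 : ℤ) • v := congrArg (fun f : Module.End ℤ V => f v) h1
    rw [h2, show -(a ^ 2 + b ^ 2 : ℤ) = 1 - c * Nat.card V by linear_combination -hc, sub_smul, mul_smul, h0, smul_zero,
      sub_zero, one_smul]
  have hT : ∀ v, E ((I * J) v) = -(I * J) (E v) := fun v => by
    have a1 : I * (I * J) = -J := by rw [← mul_assoc, hI, neg_one_mul]
    have a2 : J * (I * J) = I := by rw [hIJ, mul_neg, ← mul_assoc, hJ]; simp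
    have a3 : I * J * I = J := by rw [mul_assoc, ← neg_neg (J * I), ← hIJ, mul_neg, a1, neg_neg]
    have a4 : I * J * J = -I := by rw [mul_assoc, hJ, mul_neg_one]
    have h1 : E * (I * J) = -(I * J * E) := by
      simp only [hE, add_mul, mul_add, smul_mul_assoc, mul_smul_comm, a1, a2, a3, a4]
      module
    exact congrArg (fun f : Module.End ℤ V => f v) h1
  have hi : Function.Injective (I * J) := by
    have : J * I * (I * J) = 1 := by rw [mul_assoc, ← mul_assoc I, hI, neg_one_mul, mul_neg, hJ, neg_neg]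
    exact Function.LeftInverse.injective (g := (J * I : Module.End ℤ V)) fun v =>
      congrArg (fun f : Module.End ℤ V => f v) this
  have e1 : Nat.card (LinearMap.ker (E - 1)) = Nat.card (LinearMap.ker (E + 1)) := by
    refine le_antisymm (Nat.card_le_card_of_injective (fun v => ⟨(I * J) v, ?_⟩)
      fun v w e => Subtype.ext (hi (congrArg Subtype.val e))) (Nat.card_le_card_of_injective (fun v => ⟨(I * J) v, ?_⟩)
      fun v w e => Subtype.ext (hi (congrArg Subtype.val e)))
    · have : E v = v := sub_eq_zero.1 v.2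
      show E _ + _ = 0
      rw [hT, this]; exact neg_add_cancel _
    · have : E v = -v := eq_neg_of_add_eq_zero_left v.2
      show E _ - _ = 0
      rw [hT, this, map_neg, neg_neg]; exact sub_self _
  have e2 : LinearMap.range (E - 1) = LinearMap.ker (E + 1) := by
    refine le_antisymm ?_ fun v hv => ?_
    · rintro _ ⟨v, rfl⟩
      show E (E v - v) + (E v - v) = 0
      rw [map_sub, hEE]; abel
    · obtain ⟨k, hk⟩ := hV
      have h1 : E v = -v := eq_neg_of_add_eq_zero_left hv
      refine ⟨(k : ℤ) • v, ?_⟩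
      show E _ - (k : ℤ) • v = v
      have := h0 v
      rw [hk] at this
      push_cast at this
      rw [map_smul, h1]
      linear_combination (norm := module) -this
  refine ⟨Nat.card (LinearMap.ker (E + 1)), ?_⟩
  rw [Submodule.card_eq_card_quotient_mul_card (LinearMap.ker (E - 1)), e1,
    Nat.card_congr (LinearMap.quotKerEquivRange (E - 1)).toEquiv, e2]

end H21
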