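import Cfsg.Agent.H21.KG0
import Cfsg.Agent.H23.K0

/-! Part G of S5567 in the form of the interface. -/

set_option autoImplicit false

namespace H21.KG
universe u

theorem G : Cfsg.Agent.H23.K.GStmt.{u} := fun s _ _ _ _ _ c => g s.gm c.hk.hx c.hk.KM c.pj c.pi

end H21.KG
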