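import Cfsg.Agent.H21.JU1

/-! Part G of S5567: the fixed space of a non-identity element of `Y` has order 256. -/

set_option autoImplicit false
set_option linter.unusedSectionVars false
open Subgroup H01.XT H01.XF Cfsg.Agent.H06.J H21.JU1

namespace H21.KG
universe u
variable {V : Type u} [AddCommGroup V] [Module (ZMod 2) V] [Finite V] {Γ : Type u} [Group Γ] [Finite Γ]
  {T : Γ → V →+ V} {d : Γ} {M K Y : Subgroup Γ} {β : V →+ V →+ ZMod 2} {q : V → ZMod 2} {B : AddSubgroup V}

theorem ch0 : ch 0 = 1 := rfl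
theorem ch1 : ch 1 = -1 := rfl

theorem gs [Fintype V] (h : QF β q) (H : V → ZMod 2) (N : V → V) (pol : ∀ u v, H (u + v) = H u + H v + β u (N v))
    (hB : ∀ t, N t = 0 ↔ t ∈ B) (H0 : ∀ t ∈ B, H t = 0) (cB : Nat.card B = 64) : (∑ v, ch (H v)) ^ 2 = 512 ^ 2 := by
  classical
  have cV : Fintype.card V = 4096 := by rw [← Nat.card_eq_fintype_card, h.card]
  have e2 : ∀ t : V, ch (H t) * ∑ u : V, ch (β u (N t)) = if t ∈ B then (4096 : ℤ) else 0 := fun t => by
    split_ifs with n
    · simp [(hB t).2 n, H0 t n, ch0, cV]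
    · obtain ⟨x, j⟩ : ∃ x, β x (N t) = 1 := by
        by_contra! o
        exact n ((hB t).1 (h.nd _ fun v => (h.sym _ _).trans ((z2 _).resolve_right (o v))))
      have := Equiv.sum_comp (Equiv.addRight x) fun v : V => ch (β v (N t))
      simp only [Equiv.coe_addRight, map_add, AddMonoidHom.add_apply, ch_add, j, ch1, mul_neg, mul_one,
        Finset.sum_neg_distrib] at this
      rw [show ∑ u : V, ch (β u (N t)) = 0 by omega, mul_zero]
  rw [sq, Finset.sum_mul_sum]
  have e3 : ∀ u : V, ∑ v : V, ch (H u) * ch (H v) = ∑ t : V, ch (H t) * ch (β u (N t)) := fun u => by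
    rw [← Equiv.sum_comp (Equiv.addLeft u)]
    refine Finset.sum_congr rfl fun w _ => ?_
    simp only [Equiv.coe_addLeft, pol, ch_add, ← mul_assoc, ch_sq, one_mul]
  simp only [e3]
  rw [Finset.sum_comm]
  simp only [← Finset.mul_sum, e2]
  rw [← Finset.sum_filter, Finset.sum_const, ← Fintype.card_subtype, ← Nat.card_eq_fintype_card, cB]
  norm_num

theorem g (g : Gj T d M β q) (x : Hx d K Y) (KM : K ≤ M) (p : Pj T d K Y q B) (i : Pi T Y B) :
    ∀ y ∈ Y, y ≠ 1 → {v | T y v = v}.ncard = 256 := by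
  classical
  intro y0 hy0 n0
  have := Fintype.ofFinite V
  have := Fintype.ofFinite Y
  have cw : ∀ y ∈ Y, ∀ v, T y (T d v) = T d (T y v) := fun y hy v => by rw [← g.mul, ← g.mul, g.Md y (KM (x.YK hy))]
  have w3 : ∀ v, T d (T d (T d v)) = v := fun v => by rw [← g.mul d d v, ← g.mul, g.d3, g.one]
  let U : AddSubgroup V :=
    { carrier := {v | T y0 v = v}
      zero_mem' := map_zero _
      add_mem' := fun {a b} (ha : T y0 a = a) (hb : T y0 b = b) => show T y0 (a + b) = a + b by rw [map_add, ha, hb]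
      neg_mem' := fun {a} (ha : T y0 a = a) => show T y0 (-a) = -a by rw [map_neg, ha] }
  have BU : B ≤ U := fun v hv => (p.mB v).1 hv y0 hy0
  by_contra ne
  rw [← Nat.card_coe_set_eq] at ne
  change Nat.card U ≠ 256 at ne
  have UB : B = U := by
    obtain ⟨k, -, c1, -⟩ := cpp g.toQF U
    have a := i.c256 y0 hy0 n0 U fun _ => id
    have b := AddSubgroup.card_le_of_le BU
    have m := cnt 3 (T d) w3 U U.zero_mem (map_zero _)
      (fun v (hv : T y0 v = v) => show T y0 (T d v) = T d v by rw [cw y0 hy0, hv]) fun v _ => fw g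
    change Nat.card U ≡ 1 [MOD 3] at m
    refine AddSubgroup.eq_of_le_of_card_ge BU ?_
    rw [p.cB] at b ⊢
    rw [c1] at a b m ne ⊢
    have k8 : k ≤ 8 := (Nat.pow_le_pow_iff_right (by norm_num : 1 < 2)).1 a
    interval_cases k <;> simp_all [Nat.ModEq]
  have fx : ∀ y ∈ Y, y ≠ 1 → ∀ v, v + T y v = 0 ↔ v ∈ B := fun y hy n v => ⟨fun e => by
    obtain ⟨k, hk, rfl⟩ := x.tr y0 hy0 y hy n0 n
    have e' : T (k * y0 * k⁻¹) v = v := lc e
    rw [g.mul, g.mul] at e'
    have : T k⁻¹ v ∈ B := UB.ge (show T y0 (T k⁻¹ v) = T k⁻¹ v by conv_rhs => rw [← e', li g])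
    rw [← ri g k v]
    exact p.KB k hk _ this, fun e => by rw [(p.mB v).1 e y hy]; exact lc0⟩
  have bi : ∀ k u v, β (T k u) (T k v) = β u v := fun k => g.toQF.inv (g.qT k)
  let H : Y → V → ZMod 2 := fun y v => β (T d v) (v + T y v)
  have pol : ∀ (y : Y) u v, H y (u + v) = H y u + H y v + β u (v + T y v) := fun y u v => by
    have yy : ∀ v, T y (T y v) = v := fun v => by rw [← g.mul, x.Y2 y y.2, g.one]
    have a : β (T d v) (u + T y u) = β (T d u) (T d (T d (v + T y v))) := by
      rw [bi, map_add, ← bi y (T d v) (T y u), yy, cw y y.2, map_add (T d), map_add (β u), g.toQF.sym u, g.toQF.sym u]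
    have b : β (T d u) (v + T y v) + β (T d u) (T d (T d (v + T y v))) = β u (v + T y v) := by
      rw [← map_add, show v + T y v + T d (T d (v + T y v)) = T d (v + T y v) from lc (g.hf (v + T y v)), bi]
    simp only [H]
    rw [map_add (T d), map_add (T y), show u + v + (T y u + T y v) = u + T y u + (v + T y v) by abel, map_add β,
      AddMonoidHom.add_apply, map_add (β (T d u)) (u + T y u), map_add (β (T d v)) (u + T y u), a, ← b]
    abel
  have S : ∀ y : Y, y ≠ 1 → ∑ v, ch (H y v) = -512 := fun y n => by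
    have n' : (y : Γ) ≠ 1 := fun e => n (Subtype.ext e)
    have a := gs g.toQF (H y) _ (pol y) (fx y y.2 n') (fun t ht => by simp only [H]; rw [(fx y y.2 n' t).2 ht, map_zero]) p.cB
    have m := cnt 3 (T d) w3 {v | H y v = 0} (by simp [H]) (map_zero _) (fun v (hv : H y v = 0) => show H y (T d v) = 0 by
      simp only [H] at hv ⊢
      rw [cw y y.2, ← map_add, bi, hv]) fun v _ => fw g
    have e1 : ∑ v, ch (H y v) = 2 * (Nat.card {v | H y v = 0} : ℤ) - 4096 := by
      have : ∀ v, ch (H y v) = 2 * (if H y v = 0 then 1 else 0) - 1 := fun v => by unfold ch; split_ifs <;> rfl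
      simp only [this, Finset.sum_sub_distrib, ← Finset.mul_sum, Finset.sum_boole, Finset.sum_const, Finset.card_univ,
        nsmul_eq_mul, mul_one, ← Nat.card_eq_fintype_card (α := V), g.card]
      rw [← Fintype.card_subtype, ← Nat.card_eq_fintype_card]
      rfl
    rcases sq_eq_sq_iff_eq_or_eq_neg.1 a with b | b
    · rw [e1] at b
      unfold Nat.ModEq at m
      omega
    · exact b
  have t1 : ∑ y : Y, ∑ v, ch (H y v) = 4096 - 15 * 512 := by
    rw [← Finset.add_sum_erase _ _ (Finset.mem_univ 1), Finset.sum_congr rfl fun y hy => S y (Finset.ne_of_mem_erase hy),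
      Finset.sum_const, Finset.card_erase_of_mem (Finset.mem_univ _), Finset.card_univ, ← Nat.card_eq_fintype_card, x.cY]
    have : ∀ v, ch (H 1 v) = 1 := fun v => by
      simp only [H, OneMemClass.coe_one, g.one]
      rw [show v + v = 0 from lc0, map_zero, ch0]
    simp only [this, Finset.sum_const, Finset.card_univ, ← Nat.card_eq_fintype_card (α := V), g.card]
    norm_num
  have t2 : ∀ v, 0 ≤ ∑ y : Y, ch (H y v) := fun v => by
    by_cases o : ∃ y1 : Y, H y1 v = 1
    · obtain ⟨y1, j⟩ := o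
      have ad : ∀ y : Y, H (y * y1) v = H y v + H y1 v := fun y => by
        simp only [H, coe_mul, g.mul]
        have e := (p.mB _).1 (p.cm y1 y1.2 v) y y.2
        rw [map_add] at e
        rw [← map_add, show v + T y (T y1 v) = v + T y v + (v + T y1 v) from lc e]
      have := Equiv.sum_comp (Equiv.mulRight y1) fun y : Y => ch (H y v)
      simp only [Equiv.coe_mulRight, ad, ch_add, j, ch1, mul_neg, mul_one, Finset.sum_neg_distrib] at this
      omega
    · refine Finset.sum_nonneg fun y _ => ?_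
      rw [(z2 _).resolve_right fun e => o ⟨y, e⟩, ch0]
      norm_num
  have := Finset.sum_nonneg fun v (_ : v ∈ Finset.univ) => t2 v
  rw [Finset.sum_comm, t1] at this
  omega

end H21.KG
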