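import Mathlib
import Cfsg.Agent.H07.Jordan
import Cfsg.Agent.H07.Det
import Cfsg.Agent.H06.Clifford
import Cfsg.Agent.H05.Integral
import Cfsg.Agent.H04.Basic
import Cfsg.Agent.H02.PCore

/-! Complex linear groups of degree less than `2p` with non-abelian Sylow `p`-subgroups. -/

set_option autoImplicit false
set_option linter.unusedSectionVars false
set_option linter.unusedVariables false

namespace H21.LG
open H05 H06 H07 Cfsg Subgroup Classical

variable {G : Type*} [Group G] [Finite G] {χ : G → ℂ}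

theorem cnt_dvd (hχ : IsCharacter G χ) {H : Subgroup G} [Fintype H] {z : H} (hz : z ∈ center H)
    {ι : Type*} [Fintype ι] (ω : ι → ℂ) (hω : ∀ k : ℕ, χ ((z : G) ^ k) = ∑ i, ω i ^ k) (l : ℂ) (d : ℕ)
    (h : ∀ θ : H → ℂ, IsIrrCharacter H θ → ∀ m : ℕ, classInner (fun x : H => χ x) θ = m → m ≠ 0 →
      θ z / θ 1 = l → d ∣ m * charDegree θ) : d ∣ (Finset.univ.filter fun i => ω i = l).card := by
  haveI := Fintype.ofFinite (IrrCharacter H)
  obtain ⟨m, hm, e⟩ := (hχ.restrict H).exists_nat_coeff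
  have pw : ∀ (θ : IrrCharacter H) (k : ℕ), (θ : H → ℂ) (z ^ k) =
      ((θ : H → ℂ) z / (θ : H → ℂ) 1) ^ k * (θ : H → ℂ) 1 := fun θ k => by
    induction k with
    | zero => simp
    | succ k ih => rw [pow_succ', θ.2.apply_mul_of_mem_center hz, ih]; ring
  have key := sum_fun_eq_of_powerSum ω (fun x : Σ θ : IrrCharacter H, Fin (m θ * charDegree (θ : H → ℂ)) =>
    (x.1 : H → ℂ) z / (x.1 : H → ℂ) 1) (fun k => by
      have := congrFun e (z ^ k)
      simp only [Finset.sum_apply, Pi.smul_apply, smul_eq_mul, SubgroupClass.coe_pow] at this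
      rw [← hω, this, Fintype.sum_sigma]
      refine Finset.sum_congr rfl fun θ _ => ?_
      simp only [Finset.sum_const, Finset.card_univ, Fintype.card_fin, nsmul_eq_mul]
      rw [pw, Nat.cast_mul, θ.2.charDegree_eq]; ring) fun c => if c = l then 1 else 0
  rw [Finset.sum_boole, Fintype.sum_sigma] at key
  rw [show (Finset.univ.filter fun i => ω i = l).card = ∑ θ : IrrCharacter H,
    if (θ : H → ℂ) z / (θ : H → ℂ) 1 = l then m θ * charDegree (θ : H → ℂ) else 0 from Nat.cast_injective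
      (R := ℂ) (key.trans (by
        push_cast
        exact Finset.sum_congr rfl fun θ _ => by split_ifs <;> simp))]
  refine Finset.dvd_sum fun θ _ => ?_
  split_ifs with e'
  · by_cases h0 : m θ = 0
    · simp [h0]
    · exact h θ θ.2 _ (hm θ) h0 e'
  · exact dvd_zero _

theorem comm_conj {n : ℕ} (ρ : Representation ℂ G (Fin n → ℂ)) (hρ : Function.Injective ρ) {ζ : ℂ}
    (hζ : ‖ζ - 1‖ < 1) {z : G} (h : ∀ v, ρ z (ρ z v) = (1 + ζ) • ρ z v - ζ • v) (g : G) :
    Commute (g * z * g⁻¹) z := by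
  obtain ⟨E, _, _, _, e, σ, h1, h2⟩ := exists_isometric_rep ρ
  have hinj : Function.Injective σ := (injective_iff_map_eq_one σ).2 fun g hg => hρ (by
    refine LinearMap.ext fun v => e.injective ?_
    rw [← h2, hg, map_one]; rfl)
  have k : ∀ y, (∀ v, ρ y (ρ y v) = (1 + ζ) • ρ y v - ζ • v) → ‖σ y - ((1 + ζ) / 2) • 1‖ < 1 / 2 := by
    intro y hy
    refine lt_of_le_of_lt (opNorm_le_of_weights σ h1 (fun _ : Unit => y) (fun _ _ => Commute.refl _) ()
      _ (r := ‖ζ - 1‖ / 2) (by positivity) fun μ w hw e' => ?_) (by linarith)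
    obtain ⟨w, rfl⟩ := e.surjective w
    have h3 := congrArg e (hy w)
    rw [map_sub, map_smul, map_smul, ← h2, ← h2, e' (), map_smul, e' (), smul_smul, smul_smul,
      ← sub_smul] at h3
    have h4 : (μ () - 1) * (μ () - ζ) = 0 := by linear_combination smul_left_injective ℂ hw h3
    rcases mul_eq_zero.1 h4 with e1 | e1 <;> rw [sub_eq_zero.1 e1]
    · rw [show 1 - (1 + ζ) / 2 = -((ζ - 1) / 2) by ring, norm_neg, norm_div]; simp
    · rw [show ζ - (1 + ζ) / 2 = (ζ - 1) / 2 by ring, norm_div]; simp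
  refine commute_of_near σ h1 hinj (k _ fun v => ?_) (k z h)
  have i1 : ∀ u, ρ g⁻¹ (ρ g u) = u := fun u => by rw [← Module.End.mul_apply, ← map_mul]; simp
  have i2 : ∀ u, ρ g (ρ g⁻¹ u) = u := fun u => by rw [← Module.End.mul_apply, ← map_mul]; simp
  simp only [map_mul, Module.End.mul_apply, i1, h, map_sub, map_smul, i2]

theorem main (hχ : IsIrrCharacter G χ) (hf : ∀ g : G, χ g = χ 1 → g = 1) {p : ℕ} (hp : p.Prime)
    (h7 : 7 ≤ p) (hn2 : charDegree χ < 2 * p) (hnp : charDegree χ ≠ p) (P : Sylow p G)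
    (hP : ¬ IsMulCommutative (P : Subgroup G)) : ¬ p ^ 2 ∣ (pCore p G).index := by
  haveI := Fact.mk hp
  haveI := Fintype.ofFinite G
  obtain ⟨ρ, hρ⟩ := hχ.isCharacter.exists_rep
  have hinj : Function.Injective ρ := (injective_iff_map_eq_one ρ).2 fun g hg => hf g (by
    rw [← hρ, character_eq_one_iff_mem_ker]; exact hg)
  have fr := Module.finrank_fin_fun (R := ℂ) (n := charDegree χ)
  have hζ := Complex.isPrimitiveRoot_exp p hp.ne_zero
  set ζ := Complex.exp (2 * Real.pi * Complex.I / p) with hζ'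
  have tr : ∀ (z : G) (b : Module.Basis (Fin (Module.finrank ℂ (Fin (charDegree χ) → ℂ))) ℂ _) (ω : _ → ℂ),
      (∀ i, ρ z (b i) = ω i • b i) → ∀ k : ℕ, χ (z ^ k) = ∑ i, ω i ^ k := fun z b ω h k => by
    rw [← congrFun hρ]
    exact trace_eq_sum_of_eigenbasis b _ _ fun i => by rw [map_pow, pow_apply_of_eigen _ (h i)]
  obtain ⟨z, hz1, hz2, hzp, b, ω, hω, i₀, hi₀⟩ : ∃ z : (P : Subgroup G), z ∈ _root_.commutator (P : Subgroup G) ∧
      z ∈ center (P : Subgroup G) ∧ z ^ p = 1 ∧ ∃ (b : Module.Basis (Fin (Module.finrank ℂ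
        (Fin (charDegree χ) → ℂ))) ℂ _) (ω : _ → ℂ), (∀ i, ρ z (b i) = ω i • b i) ∧ ∃ i, ω i = ζ := by
    obtain ⟨z, h1, h3, h4, h2⟩ := H04.exists_mem_center_pow_eq_one_of_normal P.2
      (_root_.commutator (P : Subgroup G)) fun e => hP ⟨⟨fun a b => commutatorElement_eq_one_iff_mul_comm.1
        (mem_bot.1 (e ▸ commutator_mem_commutator (mem_top a) (mem_top b)))⟩⟩
    obtain ⟨b, ω, h5, h6⟩ := exists_eigenbasis_of_pow_eq_one (ρ z) hp.ne_zero (by
      rw [← map_pow, ← SubgroupClass.coe_pow, h4]; simp)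
    obtain ⟨i, hi⟩ : ∃ i, ω i ≠ 1 := by
      by_contra! e
      exact h3 (Subtype.ext (hinj (b.ext fun i => by simp [h6, e])))
    obtain ⟨k, -, hk⟩ := (IsPrimitiveRoot.iff_orderOf.2 (orderOf_eq_prime (h5 i) hi)).eq_pow_of_pow_eq_one
      hζ.pow_eq_one
    exact ⟨z ^ k, pow_mem h1 k, pow_mem h2 k, by rw [← pow_mul, mul_comm, pow_mul, h4, one_pow], b,
      fun i => ω i ^ k, fun i => by rw [SubgroupClass.coe_pow, map_pow, pow_apply_of_eigen _ (h6 i)], i, hk⟩
  have z1 : ζ ≠ 1 := hζ.ne_one hp.one_lt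
  have hωp : ∀ i, ω i ^ p = 1 := fun i => by
    have := pow_apply_of_eigen _ (hω i) p
    rw [← map_pow, ← SubgroupClass.coe_pow, hzp, OneMemClass.coe_one, map_one, Module.End.one_apply] at this
    exact smul_left_injective ℂ (b.ne_zero i) (this.symm.trans (one_smul _ _).symm)
  have c1 : ∀ i, ω i ≠ 1 → p ≤ (Finset.univ.filter fun j => ω j = ω i).card ∧
      p ∣ (Finset.univ.filter fun j => ω j = ω i).card := fun i hi => by
    have : p ∣ (Finset.univ.filter fun j => ω j = ω i).card := by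
      refine cnt_dvd hχ.isCharacter hz2 ω (tr z b ω hω) _ _ fun θ hθ m _ _ e => Dvd.dvd.mul_left ?_ _
      have h1 := detHom_of_scalar hθ.isCharacter (hθ.apply_mul_of_mem_center hz2)
      rw [e, Abelianization.commutator_subset_ker (detHom θ) hz1, Units.val_one] at h1
      exact (orderOf_eq_prime (hωp i) hi).symm.dvd.trans (orderOf_dvd_of_pow_eq_one h1.symm)
    exact ⟨Nat.le_of_dvd (Finset.card_pos.2 ⟨i, by simp⟩) this, this⟩
  have c0 := c1 i₀ (hi₀ ▸ z1)
  rw [hi₀] at c0
  have c2 : (Finset.univ.filter fun j => ω j = ζ).card = p := by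
    have := (Finset.card_le_univ (Finset.univ.filter fun j => ω j = ζ)).trans_eq ((Fintype.card_fin _).trans fr)
    obtain ⟨k, hk⟩ := c0.2
    rcases k with _ | _ | k
    · omega
    · omega
    · nlinarith
  have c3 : ∀ i, ω i = 1 ∨ ω i = ζ := fun i => by
    by_contra! e
    have := (Finset.card_le_univ ((Finset.univ.filter fun j => ω j = ω i) ∪
      Finset.univ.filter fun j => ω j = ζ)).trans_eq ((Fintype.card_fin _).trans fr)
    rw [Finset.card_union_of_disjoint (Finset.disjoint_filter.2 fun j _ e1 e2 => e.2 (e1.symm.trans e2))] at this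
    have := (c1 i e.1).1
    omega
  have cc := comm_conj ρ hinj (ζ := ζ) (z := z) (by
    rw [hζ', show 2 * (Real.pi : ℂ) * Complex.I / p = Complex.I * (2 * Real.pi / p : ℝ) by push_cast; ring]
    refine Real.norm_exp_I_mul_ofReal_sub_one_le.trans_lt ?_
    have : (7 : ℝ) ≤ p := by exact_mod_cast h7
    rw [Real.norm_of_nonneg (by positivity), div_lt_one (by positivity)]
    linarith [Real.pi_lt_d2]) fun v => by
      have : ρ z ∘ₗ ρ z = (1 + ζ) • ρ z - ζ • LinearMap.id := b.ext fun i => by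
        simp only [LinearMap.comp_apply, hω, map_smul, smul_smul, LinearMap.sub_apply, LinearMap.smul_apply,
          LinearMap.id_apply, ← sub_smul]
        rcases c3 i with e | e <;> rw [e] <;> congr 1 <;> ring
      exact congrArg (fun T : _ →ₗ[ℂ] _ => T v) this
  set K := centralizer (normalClosure {(z : G)} : Set G) with hK
  have hzK : (z : G) ∈ K := by
    rw [hK, normalClosure, centralizer_closure]
    intro x hx
    obtain ⟨_, rfl, h⟩ := Group.mem_conjugatesOfSet_iff.1 hx
    obtain ⟨g, rfl⟩ := isConj_iff.1 h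
    exact cc g
  have hAK : normalClosure {(z : G)} ≤ K := normalClosure_le_normal (by simpa)
  obtain ⟨θ, hθ, h0⟩ := exists_irr_under K hχ
  obtain ⟨e, he⟩ := (isCharacter_iff_classInner.1 (hχ.isCharacter.restrict K)).2 θ hθ
  have h1 := clifford_degree K hχ hθ h0
  rw [he, ← hθ.charDegree_eq, ← hχ.charDegree_eq] at h1
  have h2 : charDegree χ = e * (inertia K θ).index * charDegree θ := by exact_mod_cast h1
  have h3 : e * charDegree θ ∣ p := c2 ▸ cnt_dvd hχ.isCharacter (H := K) (z := ⟨z, hzK⟩)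
    (mem_center_iff.2 fun g => Subtype.ext (g.2 z (subset_normalClosure rfl)).symm) ω (tr z b ω hω) _ _
    fun φ hφ m hm m0 _ => by
      obtain ⟨g, rfl⟩ := exists_conj_of_constituent K hχ hθ hφ h0 (hm ▸ Nat.cast_ne_zero.2 m0)
      rw [classInner_res_conjFun K hχ.isClassFunction, he, Nat.cast_inj] at hm
      rw [hm, charDegree, charDegree, conjFun_apply_one]
  have h4 : e * charDegree θ = 1 := ((Nat.dvd_prime hp).1 h3).resolve_right fun e' => by
    rw [mul_right_comm, e'] at h2
    rcases hi : (inertia K θ).index with _ | _ | k <;> rw [hi] at h2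
    · exact hχ.charDegree_pos.ne' (by simpa using h2)
    · exact hnp (by simpa using h2)
    · nlinarith
  rw [mul_right_comm, h4, one_mul] at h2
  have θ1 : θ 1 = 1 := by rw [← hθ.charDegree_eq, Nat.eq_one_of_mul_eq_one_left h4, Nat.cast_one]
  set L := (inertia K θ).normalCore
  have hLK : ∀ g ∈ L, ∀ a ∈ K, g * a = a * g := fun g hg a ha => by
    have hc : g * a * g⁻¹ ∈ K := Normal.conj_mem inferInstance a ha g
    have h5 := clifford_avg K hχ hθ h0
    have h6 := (congrFun h5 (⟨_, hc⟩ * ⟨a, ha⟩⁻¹)).trans (Eq.trans ?_ (congrFun h5 1).symm)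
    · rw [← commutatorElement_eq_one_iff_mul_comm]
      exact hf _ (mul_left_cancel₀ (Nat.cast_ne_zero.2 Nat.card_pos.ne') h6)
    simp only [Pi.smul_apply, Finset.sum_apply]
    refine congrArg _ (Finset.sum_congr rfl fun x _ => ?_)
    have h7 := (isCharacter_conjFun K hθ.isCharacter x).apply_mul_of_apply_one
      ((conjFun_apply_one K x θ).trans θ1)
    have h8 : conjFun K g (conjFun K x θ) = conjFun K x θ := by
      rw [← conjFun_mul, conjFun_eq_conjFun_iff]
      exact hg x
    rw [h7, ← conjFun_apply K g (conjFun K x θ) ⟨a, ha⟩, h8, ← h7, mul_inv_cancel]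
  have hL : ∀ g ∈ L, ∀ a ∈ L, g * a = a * g := fun g hg a ha =>
    hLK g hg a fun x hx => (hLK a ha x (hAK hx)).symm
  obtain ⟨Q⟩ : Nonempty (Sylow p L) := inferInstance
  haveI : (Q : Subgroup L).Normal := ⟨fun a ha g => by
    rwa [show g * a = a * g from Subtype.ext (hL g g.2 a a.2), mul_inv_cancel_right]⟩
  haveI := Q.characteristic_of_normal inferInstance
  intro h5
  have h6 := h5.trans (index_dvd_of_le (H02.le_pCore (Q.2.map L.subtype)))
  rw [index_map_subtype] at h6
  have h8 := (((Nat.Prime.coprime_iff_not_dvd hp).2 Q.not_dvd_index).pow_left 2).dvd_of_dvd_mul_left h6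
  have h9 : L.index ∣ (charDegree χ).factorial := by
    rw [show L = _ from normalCore_eq_ker _, index_ker, h2, index, ← Nat.card_perm]
    exact card_subgroup_dvd_card _
  have := (hp.pow_dvd_factorial_iff (b := 2) (Nat.log_lt_of_lt_pow hχ.charDegree_pos.ne'
    (by nlinarith))).1 (h8.trans h9)
  rw [Nat.Ico_succ_singleton, Finset.sum_singleton, pow_one, Nat.le_div_iff_mul_le hp.pos] at this
  omega

end H21.LG
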