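import Mathlib
import Cfsg.Agent.H20.GA
import Cfsg.Agent.H05.Orth

/-!
Landau's theorem (namespace H21): `landau` (sums of at most `k` unit fractions with a given value have bounded denominators), `card_le_of_conjClasses` (the order of a finite group is bounded in terms of its class number), `card_le_of_irr`.
-/

set_option autoImplicit false

open H20 Cfsg H05

namespace H21

theorem landau (k : ℕ) : ∀ r : ℚ, ∃ N : ℕ, ∀ s : Multiset ℕ, s.card ≤ k → (∀ n ∈ s, 0 < n) →
    (s.map fun n : ℕ => (n : ℚ)⁻¹).sum = r → ∀ n ∈ s, n ≤ N := by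
  induction k with
  | zero =>
    intro r
    refine ⟨0, fun s hs _ _ n hn => ?_⟩
    rw [Multiset.card_eq_zero.1 (Nat.le_zero.1 hs)] at hn
    simp at hn
  | succ k ih =>
    intro r
    choose N hN using ih
    refine ⟨⌈(k + 1 : ℚ) / r⌉₊ + ∑ m ∈ Finset.range (⌈(k + 1 : ℚ) / r⌉₊ + 1), N (r - (m : ℚ)⁻¹),
      fun s hs hpos hsum n hn => ?_⟩
    obtain ⟨m, hm, hmin⟩ := s.toFinset.exists_min_image id ⟨n, Multiset.mem_toFinset.2 hn⟩
    rw [Multiset.mem_toFinset] at hm
    have hm0 : (0 : ℚ) < m := by exact_mod_cast hpos m hm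
    have hr : 0 < r := by
      rw [← hsum, ← Multiset.cons_erase hm, Multiset.map_cons, Multiset.sum_cons]
      refine add_pos_of_pos_of_nonneg (inv_pos.2 hm0) (Multiset.sum_nonneg fun x hx => ?_)
      obtain ⟨y, -, rfl⟩ := Multiset.mem_map.1 hx
      positivity
    have h1 : r ≤ (k + 1 : ℚ) * (m : ℚ)⁻¹ := by
      rw [← hsum]
      refine (Multiset.sum_le_card_nsmul _ (m : ℚ)⁻¹ fun x hx => ?_).trans ?_
      · obtain ⟨y, hy, rfl⟩ := Multiset.mem_map.1 hx
        exact inv_anti₀ hm0 (by exact_mod_cast hmin y (Multiset.mem_toFinset.2 hy))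
      · rw [Multiset.card_map, nsmul_eq_mul]
        exact mul_le_mul_of_nonneg_right (by exact_mod_cast hs) (inv_pos.2 hm0).le
    have h2 : m ≤ ⌈(k + 1 : ℚ) / r⌉₊ := by
      have : (m : ℚ) ≤ (k + 1 : ℚ) / r := by
        rw [le_div_iff₀ hr]
        calc (m : ℚ) * r ≤ m * ((k + 1 : ℚ) * (m : ℚ)⁻¹) := mul_le_mul_of_nonneg_left h1 hm0.le
          _ = k + 1 := by field_simp
      exact_mod_cast this.trans (Nat.le_ceil _)
    by_cases hnm : n = m
    · rw [hnm]; exact h2.trans (Nat.le_add_right _ _)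
    · refine le_trans ?_ (Nat.le_add_left _ _)
      refine le_trans (hN (r - (m : ℚ)⁻¹) (s.erase m) ?_ (fun x hx => hpos x (Multiset.mem_of_mem_erase hx))
        ?_ n ((Multiset.mem_erase_of_ne hnm).2 hn))
        (Finset.single_le_sum (f := fun m : ℕ => N (r - (m : ℚ)⁻¹)) (fun _ _ => Nat.zero_le _)
          (Finset.mem_range.2 (Nat.lt_succ_of_le h2)))
      · rw [Multiset.card_erase_of_mem hm]
        exact Nat.pred_le_of_le_succ hs |>.trans (by simp)
      · rw [← hsum]
        conv_rhs => rw [← Multiset.cons_erase hm, Multiset.map_cons, Multiset.sum_cons]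
        ring

universe u

theorem card_le_of_conjClasses (k : ℕ) : ∃ N : ℕ, ∀ (G : Type u) [Group G] [Finite G],
    Nat.card (ConjClasses G) ≤ k → Nat.card G ≤ N := by
  classical
  obtain ⟨N, hN⟩ := landau k 1
  refine ⟨N, fun G _ _ hk => ?_⟩
  haveI := Fintype.ofFinite G
  haveI := Fintype.ofFinite (ConjClasses G)
  refine hN ((Finset.univ : Finset (ConjClasses G)).val.map
    fun C => Nat.card (Subgroup.centralizer ({C.out} : Set G))) ?_ ?_ ?_ _ ?_
  · rw [Multiset.card_map]
    simpa [Nat.card_eq_fintype_card] using hk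
  · intro n hn
    obtain ⟨C, -, rfl⟩ := Multiset.mem_map.1 hn
    exact Nat.card_pos
  · rw [Multiset.map_map]
    have hG : (Nat.card G : ℚ) ≠ 0 := by exact_mod_cast Nat.card_pos.ne'
    have h1 : ∀ C : ConjClasses G, ((Nat.card (Subgroup.centralizer ({C.out} : Set G)) : ℚ))⁻¹ =
        (C.carrier.toFinset.card : ℚ) / Nat.card G := fun C => by
      have h2 := card_class_mul_card_centralizer C.out
      have h3 : Nat.card {x | IsConj C.out x} = C.carrier.toFinset.card := by
        rw [Set.toFinset_card, ← Nat.card_eq_fintype_card]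
        congr 2
        ext x
        rw [Set.mem_setOf_eq, isConj_out_iff, ConjClasses.mem_carrier_iff_mk_eq, eq_comm]
      rw [← h3, ← h2, Nat.cast_mul]
      have h4 : (Nat.card {x | IsConj C.out x} : ℚ) ≠ 0 := by
        intro h
        rw [← h2, Nat.cast_mul, h, zero_mul] at hG
        exact hG rfl
      have h5 : (Nat.card (Subgroup.centralizer ({C.out} : Set G)) : ℚ) ≠ 0 := by
        exact_mod_cast Nat.card_pos.ne'
      field_simp
    show ∑ C : ConjClasses G, ((Nat.card (Subgroup.centralizer ({C.out} : Set G)) : ℚ))⁻¹ = 1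
    simp only [h1]
    rw [← Finset.sum_div, ← Nat.cast_sum, sum_conjClasses_card_eq_card,
      Nat.card_eq_fintype_card, div_self]
    rwa [Nat.card_eq_fintype_card] at hG
  · refine Multiset.mem_map.2 ⟨ConjClasses.mk 1, Finset.mem_univ _, ?_⟩
    have : (ConjClasses.mk (1 : G)).out = 1 := isConj_one_left.1 (isConj_out 1)
    rw [this]
    have : Subgroup.centralizer ({1} : Set G) = ⊤ := by
      ext x; simp [Subgroup.mem_centralizer_iff]
    rw [this, Subgroup.card_top]

theorem card_le_of_irr (k : ℕ) : ∃ N : ℕ, ∀ (G : Type u) [Group G] [Finite G],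
    Nat.card (IrrCharacter G) ≤ k → Nat.card G ≤ N := by
  obtain ⟨N, hN⟩ := card_le_of_conjClasses.{u} k
  exact ⟨N, fun G _ _ hk => hN G (card_irr_eq_card_conjClasses (G := G) ▸ hk)⟩

end H21
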