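import Cfsg.Agent.H14.CKit
import Cfsg.Agent.H14.Co1

/-! Centraliser bounds in `Co0` (a copy of the first part of `H14.CenB` and of `H14.CoZ` with a small import closure). -/

set_option autoImplicit false

namespace H21.MtL7

open Finset Cfsg MulAction H14

variable {Ms : List (List ℕ)} {gen : ℕ → Co0}

/-- at most `c` minimal vectors have the inner products with `us` and the profile of `vN v` -/
noncomputable def cntQ7 (X : List ℕ) (Ms : List (List ℕ)) (qs : List (Ex × ℕ)) (us : List ℕ) (v c : ℕ) : Bool :=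
  forceL (mapL (fun u => (dotInt (vN u) (vN v) + 1024).toNat) us) fun ds => forceL (arr1 v) fun L =>
    band (band (vecsOk 16 1 L) (H13.allL (fun c => Nat.ble c.2 2048) (us.zip ds))) (band (normOk 16 1 L 32)
      (band (Nat.beq (condF 16 1 L (us.zip ds)) (H13.rep 16 1)) (band (qF 16 1 L Ms qs fun F => Nat.beq F (H13.rep 16 1))
        (qF 19 196560 X Ms qs fun F => Nat.ble (H13.cnt 19 (Nat.land (condF 19 196560 X (us.zip ds)) F)) c))))

theorem cntQ_spec7 (hM : ∀ l, IsM (gen l) (nthM Ms l)) {K : Subgroup Co0} {qs : List (Ex × ℕ)}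
    (hq : ∀ k ∈ K, ∀ q ∈ qs, k * q.1.ev gen = q.1.ev gen * k) {us : List ℕ} (h : ∀ k ∈ K, Fixes k us) {v c : ℕ}
    (e : cntQ7 minX Ms qs us v c = true) :
    ∃ x : leechLattice, (x : V) = vN v ∧ Nat.card K ≤ c * Nat.card ↥(K ⊓ stabilizer Co0 x) := by
  simp only [cntQ7, band_iff, forceL_eq, H13.allL_iff, Nat.ble_eq] at e
  generalize mapL _ us = ds at e
  obtain ⟨⟨h0, h1⟩, h2, h3, h4, h5⟩ := e
  have h0 := vecsOk_spec h0
  obtain ⟨F, hF, h4⟩ := qF_spec h0 hM h4
  obtain ⟨G, hG, h5⟩ := qF_spec minOk hM h5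
  have := ncard_fl minOk (q := fun x => Cond (us.zip ds) x ∧ QCond gen qs (toL x))
    ((condF_spec (by norm_num) minOk.arr h1).and hG)
  rw [min_set] at this
  simp only [toL_coe] at this
  refine ⟨(mkPts h0).pt 0, (mkPts_coe h0 Nat.one_pos).trans (vec_arr1 v), ?_⟩
  rw [card_eq_mul_stab K ((mkPts h0).pt 0) {y | ∃ g ∈ K, g • (mkPts h0).pt 0 = y} (fun g hg => ⟨g, hg, rfl⟩) fun _ h => h]
  refine Nat.mul_le_mul_right _ (le_trans ?_ (this.le.trans (Nat.le_of_ble_eq_true h5)))
  refine Set.ncard_le_ncard ?_ ((finite_norm 32).subset fun _ h => h.1)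
  rintro _ ⟨g, hg, rfl⟩
  exact ⟨(co_norm _ _).trans (norm_of_normOk h0 h2 Nat.one_pos), Fixes.cond (fun u hu => by
    obtain ⟨c, hc, rfl⟩ := List.mem_map.1 hu
    exact h g hg _ (List.of_mem_zip hc).1) (all_cond h0 h1 h3 Nat.one_pos), QCond.smul (hq g hg) (hF.all (by norm_num) h4 0 Nat.one_pos)⟩

/-- steps `(l, ns, v, c)`: for `l < m` the generator `l` maps the last vector to the new vector `v`, otherwise there are at most `c`
possible images of `v`; at the end the vectors span the space -/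
noncomputable def cbdOk7 (Ms : List (List ℕ)) (m : ℕ) (qe : List Ex) (C : List ℕ) (st : List (ℕ × List ℕ × ℕ × ℕ))
    (us : List ℕ) : Bool :=
  forceL minX fun X => List.rec (motive := fun _ => List ℕ → Bool) (rankOk C)
    (fun s _ ih us => band (bif' (Nat.blt s.1 m) (band (band (Nat.blt 0 us.length) (Nat.blt 0 s.2.2.2))
      (mapOk (nthM Ms s.1) (H13.nthN us 0) s.2.2.1)) (cntQ7 X Ms (qe.zip s.2.1) us s.2.2.1 s.2.2.2)) (ih (s.2.2.1 :: us))) st us

theorem card_le_of_cbd7 (hM : ∀ l, IsM (gen l) (nthM Ms l)) {K : Subgroup Co0} {m : ℕ} (hk : ∀ k ∈ K, ∀ l < m, k * gen l = gen l * k)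
    {qe : List Ex} (hq : ∀ k ∈ K, ∀ q ∈ qe, k * q.ev gen = q.ev gen * k) {C : List ℕ} {st : List (ℕ × List ℕ × ℕ × ℕ)} {us : List ℕ}
    (h : ∀ k ∈ K, Fixes k us) (e : cbdOk7 Ms m qe C st us = true) : Nat.card K ≤ (st.map (·.2.2.2)).prod := by
  rw [cbdOk7, forceL_eq] at e
  induction st generalizing us K with
  | nil => exact (Subgroup.card_eq_one.2 (eq_bot_iff.2 fun k a => eq_one_of_fixes (h k a) e)).le
  | cons s st ih =>
    obtain ⟨h1, e⟩ := (band_iff _ _).1 e
    rw [bif'_eq] at h1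
    rw [List.map_cons, List.prod_cons]
    split_ifs at h1 with a
    · simp only [band_iff, Nat.blt_eq, H13.nthN_eq] at h1 a
      refine (ih hk hq (fun k c => List.forall_mem_cons.2 ⟨?_, h k c⟩) e).trans (Nat.le_mul_of_pos_left _ h1.1.2)
      obtain ⟨x, b, d⟩ := h k c _ (List.getElem_mem h1.1.1)
      rw [List.getD_eq_getElem _ _ h1.1.1] at h1
      exact ⟨gen s.1 • x, (hM s.1).map h1.2 b, by rw [← mul_smul, hk k c _ a, mul_smul, d]⟩
    · obtain ⟨x, b, d⟩ := cntQ_spec7 hM (fun k c q hq' => hq k c _ (List.of_mem_zip hq').1) h h1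
      exact d.trans (Nat.mul_le_mul_left _ (ih (K := K ⊓ stabilizer Co0 x) (fun k c => hk k c.1) (fun k c => hq k c.1)
        (fun k c => List.forall_mem_cons.2 ⟨⟨x, b, c.2⟩, h k c.1⟩) e))

/-- the centraliser of the first generator -/
theorem cen_le7 (hM : H13.allL matOk Ms = true) {ks : List ℕ} {C : List ℕ} {st : List (ℕ × List ℕ × ℕ × ℕ)}
    (e : cbdOk7 Ms 1 (ks.map fun k => Ex.g 0 ^ k) C st [] = true) :
    Nat.card (Subgroup.centralizer {genM Ms 0}) ≤ (st.map (·.2.2.2)).prod :=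
  card_le_of_cbd7 (isM_genM hM) (fun k a l hl => by rw [Nat.lt_one_iff.1 hl]; exact Subgroup.mem_centralizer_singleton_iff.1 a)
    (fun k a => List.forall_mem_map.2 fun j _ => (Commute.pow_right (Subgroup.mem_centralizer_singleton_iff.1 a) j).eq)
    (fun _ _ => List.forall_mem_nil _) e

open Subgroup

theorem mk_eq7 {a b : Co0} : (a : Spor.Co1) = b ↔ a = b ∨ a = b * negCo := by
  rw [eq_comm, QuotientGroup.eq, mem_center_Co0, inv_mul_eq_one, inv_mul_eq_iff_eq_mul, eq_comm]

theorem comap_cen7 {x : Co0} (h : ¬ IsConj x (x * negCo)) :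
    (centralizer {(x : Spor.Co1)}).comap (QuotientGroup.mk' _) = centralizer {x} := by
  ext g
  rw [mem_comap, mem_centralizer_singleton_iff, mem_centralizer_singleton_iff]
  refine (mk_eq7 (a := g * x) (b := x * g)).trans (or_iff_left fun e => h (isConj_iff.2 ⟨g, ?_⟩))
  rw [e, mul_assoc x, negCo_comm, ← mul_assoc, mul_inv_cancel_right]

theorem card_comap7 (K : Subgroup Spor.Co1) : Nat.card (K.comap (QuotientGroup.mk' (center Co0))) = 2 * Nat.card K := by
  have a := (K.comap (QuotientGroup.mk' (center Co0))).card_mul_index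
  have b := K.card_mul_index
  rw [index_comap_of_surjective _ (QuotientGroup.mk'_surjective _), card_Co0] at a
  rw [card_Co1] at b
  have : K.index ≠ 0 := fun c => by rw [c] at b; omega
  exact Nat.eq_of_mul_eq_mul_right (Nat.pos_of_ne_zero this) (by rw [a, mul_assoc, b]; rfl)

theorem card_cen7 {x : Co0} (h : ¬ IsConj x (x * negCo)) :
    Nat.card (centralizer {x}) = 2 * Nat.card (centralizer {(x : Spor.Co1)}) := by rw [← comap_cen7 h, card_comap7]

theorem nc_odd7 {x : Co0} {k : ℕ} (h : x ^ k = 1) (o : Odd k) : ¬ IsConj x (x * negCo) := fun c => by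
  obtain ⟨g, e⟩ := isConj_iff.1 c
  obtain ⟨j, rfl⟩ := o
  have := congrArg (· ^ (2 * j + 1)) e
  simp only [conj_pow, h, Commute.mul_pow (negCo_comm x)] at this
  rw [pow_succ, pow_mul, sq, negCo_mul_self] at this
  exact negCo_ne_one (by simpa using this.symm)

end H21.MtL7
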