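import Mathlib
import Cfsg.Prelude.Def_Perm
import Cfsg.Agent.H21.IBr
import Cfsg.Agent.H20.BlkFus

/-!
Summands of permutation modules of `p`-groups and blocks of minimal dimension (Linckelmann;
namespace H21): `PIdem`, `Actv`, `PIdem.card_le_rank`, `PIdem.exists_orbit`, `PIdem.subconj`,
`nilpotent_of_min_dim`.
-/

set_option autoImplicit false
set_option linter.unusedSectionVars false
set_option linter.unusedVariables false

namespace H21
open H05 Cfsg H20 MonoidAlgebra Classical H12.Ri Module MulAction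

local notation:max "𝐂" Q:max => Subgroup.centralizer (SetLike.coe Q)
local notation:max "𝐍" Q:max => Subgroup.normalizer (SetLike.coe Q)

section
variable {k Γ X : Type*} [Field k] [Group Γ] [Finite Γ] [Fintype X] [MulAction Γ X] {p : ℕ}
  [Fact p.Prime] [CharP k p] {E : Matrix X X k} {H K : Subgroup Γ}

/-- an invariant idempotent matrix for a `p`-group -/
structure PIdem (p : ℕ) (Γ : Type*) [Group Γ] [MulAction Γ X] (E : Matrix X X k) : Prop where
  pg : IsPGroup p Γ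
  inv : ∀ (g : Γ) x y, E (g • x) (g • y) = E x y
  sq : E * E = E

/-- the Brauer construction of `E` at `H` is not zero -/
def Actv (E : Matrix X X k) (H : Subgroup Γ) : Prop :=
  ∃ x y, H ≤ stabilizer Γ x ∧ H ≤ stabilizer Γ y ∧ E x y ≠ 0

theorem sum_eq_sum_stab (hH : IsPGroup p H) (f : X → k) (hf : ∀ g ∈ H, ∀ x, f (g • x) = f x) :
    ∑ x, f x = ∑ x with H ≤ stabilizer Γ x, f x := by
  rw [sum_eq_sum_fixedPoints hH f fun u x => hf u u.2 x]
  exact Finset.sum_congr (Finset.filter_congr fun x _ =>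
    ⟨fun h g hg => h ⟨g, hg⟩, fun h g => h g.2⟩) fun _ _ => rfl

theorem PIdem.mulVec (h : PIdem p Γ E) (g : Γ) (a : X → k) :
    E.mulVec (permRep k Γ X g a) = permRep k Γ X g (E.mulVec a) := funext fun x =>
  (Fintype.sum_equiv (MulAction.toPerm g) (fun y => E (g⁻¹ • x) y * a y)
    (fun y => E x y * a (g⁻¹ • y)) fun y => by simp [← h.inv g (g⁻¹ • x)]).symm

theorem PIdem.card_le_rank (h : PIdem p Γ E) {s : Finset X} (hs : ∀ (g : Γ), ∀ x ∈ s, g • x ∈ s)
    (h1 : ∀ a : X → k, (∀ x ∉ s, a x = 0) → (∀ (g : Γ) x, a (g • x) = a x) → E.mulVec a = 0 →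
      a = 0) : s.card ≤ E.rank := by
  let A : Submodule k (X → k) := Submodule.pi (sᶜ : Set X) fun _ => ⊥
  have h2 : A ⊓ LinearMap.ker E.mulVecLin = ⊥ := by
    by_contra h3
    obtain ⟨v, ⟨v1, v2⟩, v3, v4⟩ := exists_fixed (permRep k Γ X) (h.pg.to_subgroup ⊤)
      (A ⊓ LinearMap.ker E.mulVecLin)
      (fun g _ v hv => ⟨fun x hx => hv.1 (g⁻¹ • x) fun e => hx (by simpa using hs g _ e), by
        have : E.mulVec v = 0 := hv.2
        simp [h.mulVec, this]⟩) h3
    exact v3 (h1 v v1 (fun g x => by simpa [permRep] using congrFun (v4 g⁻¹ trivial) x) v2)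
  have h3 := Submodule.finrank_sup_add_finrank_inf_eq A (LinearMap.ker E.mulVecLin)
  have h4 := Submodule.finrank_le (A ⊔ LinearMap.ker E.mulVecLin)
  have h5 := E.mulVecLin.finrank_range_add_finrank_ker
  have h6 : s.card ≤ finrank k A := by
    have := LinearMap.finrank_le_finrank_of_surjective
      (f := (LinearMap.funLeft k k (Subtype.val : s → X)).domRestrict A) fun f =>
      ⟨⟨fun x => if hx : x ∈ s then f ⟨x, hx⟩ else 0, fun x hx => dif_neg hx⟩,
        funext fun x => dif_pos x.2⟩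
    simpa using this
  rw [h2, finrank_bot] at h3
  rw [Matrix.rank]
  omega

theorem PIdem.exists_orbit (h : PIdem p Γ E) (h1 : Actv E H) (h2 : ∀ K, Actv E K → H ≤ K → K = H) :
    ∃ x z, stabilizer Γ x = H ∧ H ≤ stabilizer Γ z ∧ ∑ y with y ∈ orbit Γ x, E z y ≠ 0 := by
  have n1 : ∀ g ∈ 𝐍 H, ∀ x : X, H ≤ stabilizer Γ (g • x) ↔ H ≤ stabilizer Γ x := by
    have : ∀ g ∈ 𝐍 H, ∀ x : X, H ≤ stabilizer Γ x → H ≤ stabilizer Γ (g • x) := fun g hg x hx u hu => by
      have : (g⁻¹ * u * g) • x = x := hx ((Subgroup.mem_normalizer_iff''.1 hg u).1 hu)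
      exact inv_smul_eq_iff.1 (by simpa only [mul_smul] using this)
    exact fun g hg x => ⟨fun hx => by simpa using this _ (inv_mem hg) _ hx, this g hg x⟩
  let A : Submodule k (X → k) :=
    { carrier := {u | (∀ x, ¬ H ≤ stabilizer Γ x → u x = 0) ∧
        ∀ x, H ≤ stabilizer Γ x → E.mulVec u x = u x}
      add_mem' := fun ha hb => ⟨fun x hx => by simp [ha.1 x hx, hb.1 x hx],
        fun x hx => by simp [Matrix.mulVec_add, ha.2 x hx, hb.2 x hx]⟩
      zero_mem' := by simp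
      smul_mem' := fun c a ha => ⟨fun x hx => by simp [ha.1 x hx],
        fun x hx => by simp [Matrix.mulVec_smul, ha.2 x hx]⟩ }
  obtain ⟨x0, y0, a1, a2, a3⟩ := h1
  obtain ⟨u, ⟨u1, u2⟩, u3, u4⟩ := exists_fixed (permRep k Γ X) (h.pg.to_subgroup (𝐍 H)) A
    (fun g hg v hv => ⟨fun x hx => hv.1 _ (by rwa [n1 _ (inv_mem hg)]), fun x hx => by
      rw [h.mulVec]; exact hv.2 _ (by rwa [n1 _ (inv_mem hg)])⟩)
    ((Submodule.ne_bot_iff _).2 ⟨fun x => if H ≤ stabilizer Γ x then E x y0 else 0,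
      ⟨fun x hx => if_neg hx, fun x hx => by
        have := congrFun (congrFun h.sq x) y0
        rw [Matrix.mul_apply, sum_eq_sum_stab (h.pg.to_subgroup H) _
          fun g hg y => by rw [← h.inv g x y, ← h.inv g y y0, hx hg, a2 hg], Finset.sum_filter] at this
        simpa [Matrix.mulVec, dotProduct, hx] using this⟩, fun e => a3 (by simpa [a1] using congrFun e x0)⟩)
  have u5 : ∀ g ∈ 𝐍 H, ∀ x, u (g • x) = u x := fun g hg x => by
    simpa [permRep] using congrFun (u4 g⁻¹ (inv_mem hg)) x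
  have u6 : ∀ x, u x ≠ 0 → stabilizer Γ x = H := fun x hx => by
    have b1 : H ≤ stabilizer Γ x := by_contra fun e => hx (u1 x e)
    by_contra b2
    haveI := h.pg.isNilpotent
    obtain ⟨g, g1, g2, g3⟩ : ∃ g ∈ stabilizer Γ x, g ∈ 𝐍 H ∧ g ∉ H := by
      haveI := (h.pg.to_subgroup (stabilizer Γ x)).isNilpotent
      obtain ⟨g, g1, g2⟩ := SetLike.exists_of_lt (normalizerCondition_of_isNilpotent
        (H.subgroupOf (stabilizer Γ x)) (lt_top_iff_ne_top.2 fun e =>
          b2 (le_antisymm (Subgroup.subgroupOf_eq_top.1 e) b1)))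
      rw [← Subgroup.subgroupOf_normalizer_eq b1] at g1
      exact ⟨g, g.2, g1, g2⟩
    apply hx
    rw [← u2 x b1, Matrix.mulVec, dotProduct, sum_eq_sum_stab
      (h.pg.to_subgroup (stabilizer Γ x ⊓ 𝐍 H)) _ fun g hg y => by
        rw [← h.inv g x y, hg.1, u5 g hg.2]]
    refine Finset.sum_eq_zero fun y hy => mul_eq_zero_of_left (by_contra fun e => g3 ?_) _
    rw [← h2 _ ⟨x, y, inf_le_left, (Finset.mem_filter.1 hy).2, e⟩ (le_inf b1 H.le_normalizer)]
    exact ⟨g1, g2⟩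
  obtain ⟨z, hz⟩ := Function.ne_iff.1 u3
  have z1 := (u6 z hz).ge
  rw [← u2 z z1, Matrix.mulVec, dotProduct,
    ← Finset.sum_fiberwise _ (Quotient.mk (orbitRel Γ X))] at hz
  obtain ⟨ω, -, w1⟩ := Finset.exists_ne_zero_of_sum_ne_zero hz
  obtain ⟨x, w2, w3⟩ := Finset.exists_ne_zero_of_sum_ne_zero w1
  obtain rfl := (Finset.mem_filter.1 w2).2
  have w4 := u6 x (right_ne_zero_of_mul w3)
  refine ⟨x, z, w4, z1, fun e => w1 ?_⟩
  rw [Finset.sum_filter, sum_eq_sum_stab (h.pg.to_subgroup H) _ fun g hg y => by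
    rw [← h.inv g z y, z1 hg, ← smul_orbit g x, Set.smul_mem_smul_set_iff, smul_orbit]] at e
  rw [← zero_mul (u x), ← e, Finset.sum_filter, Finset.sum_filter, Finset.sum_mul]
  refine Finset.sum_congr rfl fun y _ => ?_
  by_cases b1 : y ∈ orbit Γ x
  · rw [if_pos (Quotient.sound b1), if_pos b1]
    split_ifs with b2
    · obtain ⟨g, rfl⟩ := b1
      rw [u5 g]
      have : stabilizer Γ (g • x) = H := (Subgroup.eq_of_le_of_card_ge b2 (by
        rw [stabilizer_smul_eq_stabilizer_map_conj, w4,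
          Subgroup.card_map_of_injective (MulAut.conj g).injective])).symm
      rw [stabilizer_smul_eq_stabilizer_map_conj, w4] at this
      exact Subgroup.mem_normalizer_iff_map_conj_eq.2 this
    · rw [u1 y b2, mul_zero, zero_mul]
  · rw [if_neg fun e => b1 (Quotient.exact e), if_neg b1]
    simp

theorem PIdem.subconj (h : PIdem p Γ E) (h1 : Actv E H) (h2 : ∀ K : Subgroup Γ, Actv E K →
    Nat.card K ≤ Nat.card H) (h3 : E.rank ≤ H.index) (h4 : Actv E K) :
    ∃ g, ∀ u ∈ K, g⁻¹ * u * g ∈ H := by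
  obtain ⟨L, l1, l2⟩ := (Set.toFinite {L : Subgroup Γ | Actv E L}).exists_le_maximal h4
  obtain ⟨x, z, a1, a2, a3⟩ := h.exists_orbit l2.1 fun K hK e => le_antisymm (l2.2 hK e) e
  obtain ⟨x', z', b1, b2, b3⟩ := h.exists_orbit h1 fun K hK e =>
    (Subgroup.eq_of_le_of_card_ge e (h2 K hK)).symm
  by_contra h5
  have h6 : ∀ y ∈ orbit Γ x', ¬ L ≤ stabilizer Γ y := by
    rintro _ ⟨g, rfl⟩ e
    refine h5 ⟨g, fun u hu => b1 ▸ ?_⟩
    have : u • g • x' = g • x' := e (l1 hu)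
    simp [mul_smul, this]
  have h7 : ∀ y ∈ orbit Γ x, y ∉ orbit Γ x' := fun y hy e =>
    h6 x ((orbit_eq_iff.2 e ▸ orbit_eq_iff.2 hy ▸ mem_orbit_self x :)) a1.ge
  have h8 : Disjoint (Finset.univ.filter (· ∈ orbit Γ x)) (Finset.univ.filter (· ∈ orbit Γ x')) :=
    Finset.disjoint_filter.2 fun y _ => h7 y
  have := h.card_le_rank (s := Finset.univ.filter (· ∈ orbit Γ x) ∪
    Finset.univ.filter (· ∈ orbit Γ x')) (fun g y hy => by
      simpa [← Set.mem_inv_smul_set_iff, smul_orbit] using hy) fun a c1 c2 c3 => by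
    have c4 : ∀ w, (∑ y with y ∈ orbit Γ x, E w y) * a x + (∑ y with y ∈ orbit Γ x', E w y) * a x' =
        0 := fun w => by
      have : ∀ x : X, (∑ y with y ∈ orbit Γ x, E w y) * a x = ∑ y with y ∈ orbit Γ x, E w y * a y :=
        fun x => by
          rw [Finset.sum_mul]
          refine Finset.sum_congr rfl fun y hy => ?_
          obtain ⟨g, rfl⟩ := (Finset.mem_filter.1 hy).2
          rw [c2]
      rw [this, this, ← Finset.sum_union h8, Finset.sum_subset (Finset.subset_univ _) fun y _ hy => by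
        rw [c1 y hy, mul_zero]]
      exact congrFun c3 w
    have c5 := c4 z
    rw [Finset.sum_filter (· ∈ orbit Γ x'), sum_eq_sum_stab (h.pg.to_subgroup L)
      (fun y => if y ∈ orbit Γ x' then E z y else 0) fun g hg y => by
        rw [← h.inv g z y, a2 hg, ← smul_orbit g x', Set.smul_mem_smul_set_iff, smul_orbit],
      Finset.sum_eq_zero (s := Finset.univ.filter fun y => L ≤ stabilizer Γ y) fun y hy =>
        if_neg fun e => h6 y e (Finset.mem_filter.1 hy).2, zero_mul, add_zero, mul_eq_zero,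
      or_iff_right a3] at c5
    have c6 := c4 z'
    rw [c5, mul_zero, zero_add, mul_eq_zero, or_iff_right b3] at c6
    funext y
    by_contra c7
    rcases Finset.mem_union.1 (by_contra fun e => c7 (c1 y e)) with e | e <;>
      obtain ⟨g, rfl⟩ := (Finset.mem_filter.1 e).2
    exacts [c7 ((c2 g x).trans c5), c7 ((c2 g x').trans c6)]
  rw [Finset.card_union_of_disjoint h8] at this
  have h9 : (Finset.univ.filter (· ∈ orbit Γ x')).card = H.index := by
    rw [← b1, index_stabilizer, ← Set.ncard_coe_finset]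
    simp
  have := Finset.card_pos.2 (⟨x, by simp⟩ : (Finset.univ.filter (· ∈ orbit Γ x)).Nonempty)
  omega

end

/-- left and right multiplication by a subgroup -/
@[reducible] def biAct {G : Type*} [Group G] (S : Subgroup G) : MulAction (S × S) G where
  smul g x := g.1 * x * (g.2 : G)⁻¹
  one_smul x := by change (1 : G) * x * (1 : G)⁻¹ = x; simp
  mul_smul g h x := by
    change (g.1 * h.1 : G) * x * (g.2 * h.2 : G)⁻¹ = g.1 * (h.1 * x * (h.2 : G)⁻¹) * (g.2 : G)⁻¹
    group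

universe u
variable {M : Ideal AlgInt} [hMm : M.IsMaximal] {G : Type u} [Group G] [Fintype G] {p : ℕ}
  {B : Set (IrrCharacter G)}

theorem rank_eB (hB : IsPBlock M B) :
    (Matrix.of fun x y => (eB M B).coeff (x * y⁻¹)).rank =
      ∑ χ with χ ∈ B, charDegree (χ : G → ℂ) ^ 2 := by
  let e : (Res M)[G] ≃ₗ[Res M] (G → Res M) :=
    (coeffLinearEquiv _).trans (Finsupp.linearEquivFunOnFinite _ _ _)
  have h1 : (corner (eB M B) (eB M B)).map e.toLinearMap =
      LinearMap.range (Matrix.of fun x y => (eB M B).coeff (x * y⁻¹)).mulVecLin := by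
    ext f
    obtain ⟨a, rfl⟩ := e.surjective f
    have h2 : ∀ a, (Matrix.of fun x y => (eB M B).coeff (x * y⁻¹)).mulVecLin (e a) =
        e (eB M B * a) := fun a => funext fun x => (coeff_mul_right (eB M B) a x).symm
    rw [Submodule.mem_map_equiv, e.symm_apply_apply, mem_corner hB.eB_mul_self hB.eB_mul_self,
      ← (isCen_eB B).comm, and_self]
    refine ⟨fun h => ⟨e a, by rw [h2, h]⟩, fun ⟨f, hf⟩ => ?_⟩
    obtain ⟨b, rfl⟩ := e.surjective f
    rw [← e.injective ((h2 b).symm.trans hf), ← mul_assoc, hB.eB_mul_self]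
  rw [Matrix.rank, ← h1, LinearEquiv.finrank_map_eq, ← Nat.cast_inj (R := ℂ),
    finrank_corner hB.eB_mul_self hB.eB_mul_self, Nat.cast_sum, Finset.sum_filter]
  refine Finset.sum_congr rfl fun χ _ => ?_
  rw [eB, t1_eq χ.2.isClassFunction hB.isInt_idem (idem_mul_self B), ← mul_one (idem B)]
  split_ifs with h
  · rw [ev_idem_mul_of_mem h, ev_one, Nat.cast_pow, χ.2.charDegree_eq, sq]
  · rw [ev_idem_mul_of_notMem h, zero_mul]

theorem nilpotent_of_min_dim (hM : IsPModular p M) (hB : IsPBlock M B)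
    (h : (∑ χ with χ ∈ B, charDegree (χ : G → ℂ) ^ 2) * p ^ blockDefect p B ≤
      p ^ (2 * (Nat.card G).factorization p)) : IsNilpotentBlock p M B := by
  haveI := Fact.mk hM.1
  haveI := charP_Res hM
  refine isNilpotentBlock_iff.2 ⟨hB, fun a ha x hx hp => ?_⟩
  obtain ⟨D0, hD0⟩ := hB.exists_isDefectGroup p
  obtain ⟨D, hD, a1⟩ := hD0.exists_ge (ha.subConj hM hD0)
  obtain ⟨S, a2⟩ := hD.isPGroup.exists_le_sylow
  letI := biAct (S : Subgroup G)
  have sm : ∀ (g : S × S) (y : G), g • y = g.1 * y * (g.2 : G)⁻¹ := fun _ _ => rfl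
  have hE : PIdem p (S × S) (Matrix.of fun x y => (eB M B).coeff (x * y⁻¹)) :=
    ⟨fun g => by
      obtain ⟨m, hm⟩ := S.2 g.1
      obtain ⟨n, hn⟩ := S.2 g.2
      exact ⟨m + n, Prod.ext (by rw [Prod.pow_fst, pow_add, pow_mul, hm, one_pow]; rfl)
        (by rw [Prod.pow_snd, pow_add, mul_comm, pow_mul, hn, one_pow]; rfl)⟩,
    fun g x y => by
      rw [Matrix.of_apply, Matrix.of_apply, ← (isCen_eB B).coeff_conj g.1 (x * y⁻¹), sm, sm]
      congr 1
      group,
    Matrix.ext fun x z => by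
      rw [Matrix.mul_apply, Matrix.of_apply, ← hB.eB_mul_self, coeff_mul_right, hB.eB_mul_self]
      exact Fintype.sum_equiv (Equiv.mulRight z⁻¹) _ _ fun y => by simp [mul_assoc]⟩
  have b1 : ∀ (Q : Subgroup G) (x : G), Q ≤ S → x ∈ 𝐍 Q → ∃ f : Q →* S × S,
      ∀ u, ((f u).1 : G) = u ∧ ((f u).2 : G) = x⁻¹ * u * x := fun Q x hQ hx =>
    ⟨MonoidHom.mk' (fun u => (⟨u, hQ u.2⟩, ⟨x⁻¹ * u * x,
      hQ ((Subgroup.mem_normalizer_iff''.1 hx u).1 u.2)⟩)) fun u v => by
        ext <;> simp [mul_assoc], fun u => ⟨rfl, rfl⟩⟩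
  have b2 : ∀ (Q : Subgroup G) (x : G) (f : Q →* S × S), SubConj Q D →
      (∀ u, ((f u).1 : G) = u ∧ ((f u).2 : G) = x⁻¹ * u * x) →
      Actv (Matrix.of fun x y => (eB M B).coeff (x * y⁻¹)) f.range := fun Q x f hQ hf => by
    obtain ⟨c, c1, c2⟩ := hD.exists_coeff_of_subConj hB hQ
    refine ⟨c * x, x, ?_, ?_, by simpa using c2.coeff_eB_ne_zero hB⟩ <;> rintro _ ⟨u, rfl⟩ <;>
      rw [mem_stabilizer_iff, sm, (hf u).1, (hf u).2]
    · rw [← mul_assoc, c1 u u.2]; group
    · group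
  obtain ⟨f0, c0⟩ := b1 D 1 a2 (one_mem _)
  obtain ⟨f, c1⟩ := b1 a.1 x (a1.trans a2) (pstab_le a hx)
  have c2 : Nat.card f0.range = p ^ blockDefect p B := by
    rw [← hD.card_eq hM hB]
    exact (Nat.card_congr (f0.ofInjective fun u v e =>
      Subtype.ext (by rw [← (c0 u).1, e, (c0 v).1])).toEquiv).symm
  obtain ⟨g, hg⟩ := hE.subconj (b2 D 1 f0 (SubConj.refl D) c0) (fun K ⟨y, z, d1, d2, d3⟩ => by
    let φ := ((S : Subgroup G).subtype.comp (MonoidHom.fst S S)).comp K.subtype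
    have d4 : Function.Injective φ := (injective_iff_map_eq_one φ).2 fun u hu => by
      have d5 : (u.1.1 : G) = 1 := hu
      have d6 := (sm _ _).symm.trans (d1 u.2)
      exact Subtype.ext (Prod.ext (Subtype.ext d5) (Subtype.ext (by simpa [d5] using d6)))
    rw [c2, ← hD.card_eq hM hB, Nat.card_congr (φ.ofInjective d4).toEquiv]
    refine Nat.le_of_dvd Nat.card_pos (hD.subConj_of_coeff hM hB
      ((hE.pg.to_subgroup K).of_surjective _ φ.rangeRestrict_surjective) ?_ d3).card_dvd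
    rintro _ ⟨u, rfl⟩
    have d5 := (sm _ _).symm.trans (d1 u.2)
    have d6 := (sm _ _).symm.trans (d2 u.2)
    change (u.1.1 : G) * _ = _ * (u.1.1 : G)
    rw [← mul_inv_eq_iff_eq_mul]
    conv_rhs => rw [← d5, ← d6]
    group) (by
      rw [rank_eB hB]
      refine Nat.le_of_mul_le_mul_right (h.trans ?_) (pow_pos hM.1.pos _)
      rw [← c2, Subgroup.index_mul_card, Nat.card_prod, S.card_eq_multiplicity, two_mul, pow_add])
    (b2 _ x f (SubConj.of_le a1) c1)
  have c3 : ∀ u ∈ a.1, x⁻¹ * u * x = ((g.1 * g.2⁻¹ :) : G)⁻¹ * u * (g.1 * g.2⁻¹ :) := fun u hu => by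
    obtain ⟨v, hv⟩ := hg _ ⟨⟨u, hu⟩, rfl⟩
    have d1 := (c0 v).1
    have d2 := (c0 v).2
    simp only [hv, Prod.fst_mul, Prod.snd_mul, Prod.fst_inv, Prod.snd_inv, Subgroup.coe_mul,
      Subgroup.coe_inv, c1, inv_one, one_mul, mul_one] at d1 d2 ⊢
    rw [← d1, mul_assoc, inv_mul_eq_iff_eq_mul, ← eq_mul_inv_iff_mul_eq] at d2
    rw [d2]
    group
  obtain ⟨r, hr⟩ : ∃ r : S, r = g.1 * g.2⁻¹ := ⟨_, rfl⟩
  rw [← hr] at c3
  obtain ⟨m, hm⟩ := S.2 r
  have c4 : ∀ n : ℕ, ∀ u ∈ a.1, (x ^ n)⁻¹ * u * x ^ n = ((r : G) ^ n)⁻¹ * u * r ^ n := fun n => by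
    induction n with
    | zero => simp
    | succ n ih =>
      intro u hu
      have := ih _ ((Subgroup.mem_normalizer_iff''.1 (pstab_le a hx) u).1 hu)
      rw [show (x ^ (n + 1))⁻¹ * u * x ^ (n + 1) = (x ^ n)⁻¹ * (x⁻¹ * u * x) * x ^ n by group, this,
        c3 u hu]
      group
  refine mem_of_pow_mem (k := m) (fun u hu => ?_) hp
  have := c4 (p ^ m) u hu
  rw [← Subgroup.coe_pow, hm, mul_assoc, inv_mul_eq_iff_eq_mul] at this
  simpa using this

end H21
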