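import Mathlib
import Cfsg.Agent.L.Js0
import Cfsg.Agent.H19.SelfM

/-! Groups of Janko-four type: counts for the 5-elements of `C(z)` (namespace `H21.S5A`): `cnt`. -/

set_option autoImplicit false
open Cfsg BG Subgroup H01.XS Cfsg.Agent.H06.J

namespace H21.S5A
universe u

theorem cnt {G : Type u} [Group G] [Finite G] {z : G} {Q : Subgroup G}
    {V : Type u} [AddCommGroup V] [Module (ZMod 2) V] [Finite V] {Γ : Type u} [Group Γ] [Finite Γ]
    {f : C_[z] →* Γ} {π : G → Γ} {ν : G → V} {T : Γ → V →+ V} {d : Γ} {M : Subgroup Γ} {β : V →+ V →+ ZMod 2}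
    {q : V → ZMod 2} (s : Bj z Q f π ν T d M β q) (ρ : M →* Spor.M22)
    (ρk : ∀ m : M, ρ m = 1 ↔ (m : Γ) ∈ zpowers d)
    (c32 : ∀ σ ∈ C_[z], orderOf σ = 5 → Nat.card ↥(Q ⊓ C_[σ]) = 32) :
    ¬ 25 ∣ Nat.card C_[z] ∧ ∀ σ ∈ C_[z], orderOf σ = 5 →
      Nat.card ↥(C_[z] ⊓ C_[σ]) = 960 ∧ Nat.card ↥(C_[z] ⊓ N_(zpowers σ)) = 3840 := by
  have sc : ∀ x : Spor.M22, orderOf x = 5 → Nat.card C_[x] = 5 := fun x h => H19.selfC_M22 (.inl rfl) x h
  have p7 : Nat.Prime 5 := by norm_num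
  have : Fact (Nat.Prime 5) := ⟨p7⟩
  have : Fact (Nat.Prime 3) := ⟨by norm_num⟩
  have m := s.md
  have l := m.lx
  have g := s.gm
  have fs : Function.Surjective f := fun k => by
    obtain ⟨x, j, e⟩ := s.sur k
    exact ⟨⟨x, j⟩, (s.pf _).trans e⟩
  have kf : f.ker = Q.subgroupOf C_[z] := Subgroup.ext fun x => by
    rw [MonoidHom.mem_ker, s.pf, s.ker _ x.2, mem_subgroupOf]
  have cH : Nat.card C_[z] = 8192 * 2661120 := by
    rw [← f.ker.card_mul_index, index_ker, MonoidHom.range_eq_top.2 fs, card_top, g.cΓ, kf,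
      Nat.card_congr (subgroupOfEquivOfLe l.le).toEquiv, s.card]
  have n49 : ¬ 25 ∣ Nat.card C_[z] := by rw [cH]; norm_num
  refine ⟨n49, fun σ i o => ?_⟩
  have σ7 : σ ^ 5 = 1 := o ▸ pow_orderOf_eq_one σ
  have y7 : f ⟨σ, i⟩ ^ 5 = 1 := by rw [← map_pow, show (⟨σ, i⟩ : C_[z]) ^ 5 = 1 from Subtype.ext σ7, map_one]
  have y1 : f ⟨σ, i⟩ ≠ 1 := fun e => by
    have := Q.orderOf_dvd_natCard (x := σ) (kf.le e)
    rw [o, s.card] at this; norm_num at this
  generalize hy : f ⟨σ, i⟩ = y at y7 y1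
  have oy : orderOf y = 5 := orderOf_eq_prime y7 y1
  have yM : y ∈ M := by
    rw [show y = y ^ 3 * y ^ 3 by rw [← pow_add, show 3 + 3 = 5 + 1 from rfl, pow_succ, y7, one_mul]]
    exact mul_self_mem_of_index_two g.Mi _
  have d3 : d ^ 3 = 1 := (pow_three d).trans g.d3
  obtain ⟨u, hu⟩ := not_forall.1 (mt (g.fai y) y1)
  have d1 : d ≠ 1 := fun e => by
    have := g.hf u
    have t := m.two u
    rw [e, g.one, g.one, t, zero_add] at this
    exact hu (by rw [this, map_zero])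
  have od : orderOf d = 3 := orderOf_eq_prime d3 d1
  have a := card_inf_mul_relIndex f.ker ((C_[z] ⊓ C_[σ]).subgroupOf C_[z])
  rw [relIndex_ker, Nat.card_congr (subgroupOfEquivOfLe (inf_le_left : C_[z] ⊓ C_[σ] ≤ C_[z])).toEquiv] at a
  have z2 : orderOf z = 2 := orderOf_eq_prime ((l.sq l.aes.mem).elim id fun e => absurd (by simpa [pow_two] using e) l.z1) l.z1
  have a1 : Nat.card ↥(f.ker ⊓ (C_[z] ⊓ C_[σ]).subgroupOf C_[z]) = 32 := by
    rw [← c32 σ i o, ← card_map_of_injective (subtype_injective _)]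
    refine congrArg (fun H : Subgroup G => Nat.card H) (Subgroup.ext fun x => ⟨?_, fun j => ?_⟩)
    · rintro ⟨x, j, rfl⟩
      exact ⟨kf.le j.1, j.2.2⟩
    · exact ⟨⟨x, l.le j.1⟩, ⟨kf.ge j.1, l.le j.1, j.2⟩, rfl⟩
  have lP : ((C_[z] ⊓ C_[σ]).subgroupOf C_[z]).map f ≤ C_[y] := by
    rintro _ ⟨x, j, rfl⟩
    rw [mem_cent1, ← hy, ← map_mul, ← map_mul]; exact congrArg f (Subtype.ext (mem_cent1.1 j.2))
  have a2 : Nat.card C_[y] ∣ 30 := by
    have b1 := card_inf_mul_relIndex M C_[y]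
    have : M.Normal := normal_of_index_eq_two g.Mi
    have b2 := relIndex_dvd_index_of_normal M C_[y]
    have b3 := card_inf_mul_relIndex ρ.ker ((M ⊓ C_[y]).subgroupOf M)
    rw [relIndex_ker, Nat.card_congr (subgroupOfEquivOfLe (inf_le_left : M ⊓ C_[y] ≤ M)).toEquiv] at b3
    have b4 : Nat.card ↥(ρ.ker ⊓ (M ⊓ C_[y]).subgroupOf M) ∣ 3 := by
      rw [← od, ← Nat.card_zpowers, ← card_map_of_injective (subtype_injective _)]
      refine card_dvd_of_le ?_
      rintro _ ⟨x, j, rfl⟩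
      exact (ρk x).1 j.1
    have b5 : Nat.card (((M ⊓ C_[y]).subgroupOf M).map ρ) ∣ 5 := by
      rw [← sc (ρ ⟨y, yM⟩) (orderOf_eq_prime (by rw [← map_pow, show (⟨y, yM⟩ : M) ^ 5 = 1 from Subtype.ext y7, map_one]) fun e => by
        have := orderOf_dvd_of_mem_zpowers ((ρk _).1 e)
        rw [oy, od] at this; norm_num at this)]
      refine card_dvd_of_le ?_
      rintro _ ⟨x, j, rfl⟩
      rw [mem_cent1, ← map_mul, ← map_mul]; exact congrArg ρ (Subtype.ext (mem_cent1.1 j.2))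
    rw [← b1, ← b3]
    exact mul_dvd_mul (mul_dvd_mul b4 b5) (g.Mi ▸ b2)
  have c84 : Nat.card ↥(C_[z] ⊓ C_[σ]) ∣ 960 := a ▸ mul_dvd_mul a1.dvd ((card_dvd_of_le lP).trans a2)
  have cS : Nat.card ((zpowers σ).subgroupOf C_[z]) = 5 := by
    rw [Nat.card_congr (subgroupOfEquivOfLe (zpowers_le.2 i)).toEquiv, Nat.card_zpowers, o]
  let S : Sylow 5 C_[z] := Sylow.ofCard ((zpowers σ).subgroupOf C_[z]) (by rw [cS, cH]; decide +kernel)
  have c3 : 3 ∣ Nat.card ↥(C_[z] ⊓ C_[σ]) := by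
    obtain ⟨x, e⟩ := fs (y * d)
    have n21 : 15 ∣ orderOf x := by
      have := orderOf_map_dvd f x
      rwa [e, (show Commute y d from g.Md y yM).orderOf_mul_eq_mul_orderOf_of_coprime (by rw [oy, od]; norm_num), oy, od] at this
    have x0 := (orderOf_pos x).ne'
    have o3 := orderOf_pow_orderOf_div x0 ((by norm_num : 3 ∣ 15).trans n21)
    have o7 := orderOf_pow_orderOf_div x0 ((by norm_num : 5 ∣ 15).trans n21)
    obtain ⟨P, lP⟩ := (IsPGroup.of_card (p := 5) (n := 1) ((Nat.card_zpowers _).trans o7)).exists_le_sylow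
    obtain ⟨h, rfl⟩ := MulAction.exists_smul_eq C_[z] S P
    have j : h⁻¹ * x ^ (orderOf x / 5) * h ∈ (zpowers σ).subgroupOf C_[z] := by
      have := mem_pointwise_smul_iff_inv_smul_mem.1 (lP (mem_zpowers _))
      generalize x ^ (orderOf x / 5) = w at this ⊢
      show _ ∈ (S : Subgroup C_[z])
      simpa using this
    have ob : orderOf (h⁻¹ * x ^ (orderOf x / 5) * h) = 5 := by
      simpa using (MulEquiv.orderOf_eq (MulAut.conj h⁻¹) _).trans o7
    obtain ⟨k, ek⟩ := (Subgroup.eq_of_le_of_card_ge (zpowers_le.2 j) (by rw [cS, Nat.card_zpowers, ob])).ge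
      (show (⟨σ, i⟩ : C_[z]) ∈ (zpowers σ).subgroupOf C_[z] from mem_zpowers σ)
    have oa : orderOf (h⁻¹ * x ^ (orderOf x / 3) * h) = 3 := by
      simpa using (MulEquiv.orderOf_eq (MulAut.conj h⁻¹) _).trans o3
    rw [← oa, ← Subgroup.orderOf_coe]
    refine Subgroup.orderOf_dvd_natCard _ ⟨Subtype.prop _, mem_cent1.2 (congrArg Subtype.val (?_ : _ * (⟨σ, i⟩ : C_[z]) = ⟨σ, i⟩ * _))⟩
    rw [← ek]
    refine Commute.zpow_right (show _ = _ from ?_) k
    calc _ = h⁻¹ * (x ^ (orderOf x / 3) * x ^ (orderOf x / 5)) * h := by group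
      _ = _ := by rw [((Commute.refl x).pow_pow (orderOf x / 3) (orderOf x / 5)).eq]; group
  have eN : normalizer ((S : Subgroup C_[z]) : Set C_[z]) = (C_[z] ⊓ N_(zpowers σ)).subgroupOf C_[z] := by
    rw [inf_subgroupOf_left, subgroupOf_normalizer_eq (zpowers_le.2 i)]; rfl
  have s1 := card_sylow_modEq_one 5 C_[z]
  have s2 := (normalizer ((S : Subgroup C_[z]) : Set C_[z])).card_mul_index
  rw [show (normalizer ((S : Subgroup C_[z]) : Set C_[z])).index = _ from S.card_eq_index_normalizer.symm, eN, Nat.card_congr (subgroupOfEquivOfLe inf_le_left).toEquiv, cH] at s2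
  let φ := (zpowers σ).normalizerMonoidHom.comp (inclusion (inf_le_right : C_[z] ⊓ N_(zpowers σ) ≤ _))
  have s3 := φ.ker.card_mul_index
  have s4 := card_subgroup_dvd_card φ.range
  have lC : C_[z] ⊓ C_[σ] ≤ C_[z] ⊓ N_(zpowers σ) := inf_le_inf_left _ (cent_zpowers σ ▸ centralizer_le_normalizer _)
  rw [IsCyclic.card_mulAut, Nat.card_zpowers, o, show Nat.totient 5 = 4 by decide, ← index_ker] at s4
  rw [show φ.ker = (C_[z] ⊓ C_[σ]).subgroupOf _ from by
    rw [← MonoidHom.comap_ker, normalizerMonoidHom_ker, cent_zpowers]; exact Subgroup.ext fun x => ⟨fun j => ⟨x.2.1, j⟩, fun j => j.2⟩] at s3 s4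
  rw [Nat.card_congr (subgroupOfEquivOfLe lC).toEquiv] at s3
  have c2 : 32 ∣ Nat.card ↥(C_[z] ⊓ C_[σ]) := c32 σ i o ▸ card_dvd_of_le (inf_le_inf_right _ l.le)
  have c7 : 5 ∣ Nat.card ↥(C_[z] ⊓ C_[σ]) := o ▸ Subgroup.orderOf_dvd_natCard _ ⟨i, mem_cent1_self σ⟩
  rw [← s3] at s2 ⊢
  generalize Nat.card ↥(C_[z] ⊓ C_[σ]) = c at *
  generalize ((C_[z] ⊓ C_[σ]).subgroupOf _).index = k at *
  generalize Nat.card (Sylow 5 C_[z]) = n at *
  have h1 := Nat.le_of_dvd (by norm_num) c84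
  have h2 := Nat.le_of_dvd (by norm_num) s4
  have h0 := Nat.pos_of_dvd_of_pos c84 (by norm_num)
  have h4 := Nat.pos_of_dvd_of_pos s4 (by norm_num)
  have h3 : c = 480 ∨ c = 960 := by omega
  unfold Nat.ModEq at s1
  rcases h3 with rfl | rfl <;> interval_cases k <;> omega

end H21.S5A
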