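import Mathlib
import Cfsg.Agent.H02.HigCo

/-!
# Weights of elements of large order in finite fields of characteristic two
-/

set_option linter.unusedSectionVars false

namespace H21.SH

open H02.Hig

theorem bad_card (n h x : ℕ) :
    ((Finset.range n).filter fun r => n ≤ (x + r) % n + h).card ≤ h := by
  have : ((Finset.range n).filter fun r => n ≤ (x + r) % n + h).card ≤ (Finset.Ico (n - h) n).card := by
    refine Finset.card_le_card_of_injOn (fun r => (x + r) % n) (fun r hr => ?_) fun r hr s hs e => ?_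
    · simp only [Finset.coe_filter, Finset.mem_range, Set.mem_setOf_eq] at hr
      simp only [Finset.coe_Ico, Set.mem_Ico]
      exact ⟨by omega, Nat.mod_lt _ (by omega)⟩
    · simp only [Finset.coe_filter, Finset.mem_range, Set.mem_setOf_eq] at hr hs
      exact Nat.ModEq.eq_of_lt_of_lt (Nat.ModEq.add_left_cancel' x e) hr.1 hs.1
  rw [Nat.card_Ico] at this
  omega

theorem rot {n h : ℕ} (hn : 5 * h < n) (a b c s t : ℕ) : ∃ r, (a + r) % n + h < n ∧
    (b + r) % n + h < n ∧ (c + r) % n + h < n ∧ (s + r) % n + h < n ∧ (t + r) % n + h < n := by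
  by_contra hcon
  let B : ℕ → Finset ℕ := fun x => (Finset.range n).filter fun r => n ≤ (x + r) % n + h
  have h1 : Finset.range n ⊆ B a ∪ B b ∪ B c ∪ B s ∪ B t := fun r hr => by
    simp only [B, Finset.mem_union, Finset.mem_filter, hr, true_and]
    by_contra h2
    exact hcon ⟨r, by omega⟩
  have h2 := Finset.card_le_card h1
  have e1 := Finset.card_union_le (B a ∪ B b ∪ B c ∪ B s) (B t)
  have e2 := Finset.card_union_le (B a ∪ B b ∪ B c) (B s)
  have e3 := Finset.card_union_le (B a ∪ B b) (B c)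
  have e4 := Finset.card_union_le (B a) (B b)
  have := bad_card n h a
  have := bad_card n h b
  have := bad_card n h c
  have := bad_card n h s
  have := bad_card n h t
  rw [Finset.card_range] at h2
  simp only [B] at *
  omega

theorem two_pow_mod (n x : ℕ) : 2 ^ x ≡ 2 ^ (x % n) [MOD 2 ^ n - 1] := by
  have h1 : 2 ^ n ≡ 1 [MOD 2 ^ n - 1] :=
    ((Nat.modEq_iff_dvd' Nat.one_le_two_pow).2 dvd_rfl).symm
  conv_lhs => rw [← Nat.div_add_mod x n, pow_add, pow_mul]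
  simpa using (h1.pow (x / n)).mul_right (2 ^ (x % n))

theorem transfer {n : ℕ} (hn : 2 ≤ n)
    (hD : Nat.gcd (2 ^ n - 1) n = 1 ∨ 3 * Nat.gcd (2 ^ n - 1) n < 2 ^ ((n - 1) / 5 + 1))
    {a b c s t : ℕ} (h : n * (2 ^ a + 2 ^ b + 2 ^ c) ≡ n * (2 ^ s + 2 ^ t) [MOD 2 ^ n - 1]) :
    2 ^ a + 2 ^ b + 2 ^ c ≡ 2 ^ s + 2 ^ t [MOD 2 ^ n - 1] := by
  have hpos : 0 < 2 ^ n - 1 := Nat.sub_pos_of_lt (Nat.one_lt_two_pow (by omega))
  rcases hD with hD | hD
  · simpa [hD] using Nat.ModEq.cancel_left_div_gcd hpos h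
  set k := (n - 1) / 5 with hk
  obtain ⟨r, ha, hb, hc, hs, ht⟩ := rot (n := n) (h := k) (by omega) a b c s t
  have e1 : 2 ^ r * (2 ^ a + 2 ^ b + 2 ^ c) ≡
      2 ^ ((a + r) % n) + 2 ^ ((b + r) % n) + 2 ^ ((c + r) % n) [MOD 2 ^ n - 1] := by
    have : 2 ^ r * (2 ^ a + 2 ^ b + 2 ^ c) = 2 ^ (a + r) + 2 ^ (b + r) + 2 ^ (c + r) := by ring
    rw [this]
    exact ((two_pow_mod n _).add (two_pow_mod n _)).add (two_pow_mod n _)
  have e2 : 2 ^ r * (2 ^ s + 2 ^ t) ≡ 2 ^ ((s + r) % n) + 2 ^ ((t + r) % n) [MOD 2 ^ n - 1] := by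
    have : 2 ^ r * (2 ^ s + 2 ^ t) = 2 ^ (s + r) + 2 ^ (t + r) := by ring
    rw [this]
    exact (two_pow_mod n _).add (two_pow_mod n _)
  have e3 : n * (2 ^ ((a + r) % n) + 2 ^ ((b + r) % n) + 2 ^ ((c + r) % n)) ≡
      n * (2 ^ ((s + r) % n) + 2 ^ ((t + r) % n)) [MOD 2 ^ n - 1] := by
    refine ((e1.mul_left n).symm.trans ?_).trans (e2.mul_left n)
    rw [mul_left_comm, mul_left_comm n]
    exact h.mul_left _
  have e4 := Nat.ModEq.cancel_left_div_gcd hpos e3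
  obtain ⟨m, hm⟩ : ∃ m, n = m + 1 + (k + 1) := ⟨n - k - 2, by omega⟩
  have hb' : ∀ x, x + k < n → 2 ^ x ≤ 2 ^ (m + 1) := fun x hx =>
    Nat.pow_le_pow_right two_pos (by omega)
  have hlt : ∀ A, A ≤ 3 * 2 ^ (m + 1) → A < (2 ^ n - 1) / Nat.gcd (2 ^ n - 1) n := by
    intro A hA
    obtain ⟨N, hN⟩ := Nat.gcd_dvd_left (2 ^ n - 1) n
    generalize Nat.gcd (2 ^ n - 1) n = D at hD hN
    have hD0 : 0 < D := Nat.pos_of_ne_zero (by rintro rfl; omega)
    rw [hN, Nat.mul_div_cancel_left _ hD0]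
    have h1 : 2 ^ n = 2 ^ (m + 1) * 2 ^ (k + 1) := by rw [← pow_add, ← hm]
    have h2 : 2 ≤ 2 ^ (m + 1) := by
      have := Nat.one_le_two_pow (n := m); rw [pow_succ]; omega
    have h3 : D * N + 1 = 2 ^ (m + 1) * 2 ^ (k + 1) := by omega
    by_contra hle
    push Not at hle
    have h4 : D * N ≤ D * (3 * 2 ^ (m + 1)) := Nat.mul_le_mul_left _ (hle.trans hA)
    nlinarith
  have e5 := Nat.ModEq.eq_of_lt_of_lt e4 (hlt _ (by
      have := hb' _ ha; have := hb' _ hb; have := hb' _ hc; omega))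
    (hlt _ (by have := hb' _ hs; have := hb' _ ht; omega))
  rw [← e5] at e2
  refine Nat.ModEq.cancel_left_of_coprime ?_ (e1.trans e2.symm)
  refine Nat.Coprime.pow_right r ?_
  rw [Nat.coprime_comm, Nat.coprime_two_left]
  exact Nat.Even.sub_odd Nat.one_le_two_pow ((Nat.even_pow' (by omega)).2 even_two) odd_one

theorem big_aux (m : ℕ) : 3 * (5 * (m + 6) + 5) < 2 ^ (m + 6 + 1) := by
  induction m with
  | zero => norm_num
  | succ m ih => rw [show m + 1 + 6 + 1 = m + 6 + 1 + 1 by ring, pow_succ 2 (m + 6 + 1)]; omega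

theorem ncases (n : ℕ) : n = 6 ∨ n = 12 ∨ n = 18 ∨
    (Nat.gcd (2 ^ n - 1) n = 1 ∨ 3 * Nat.gcd (2 ^ n - 1) n < 2 ^ ((n - 1) / 5 + 1)) := by
  by_cases h : n < 31
  · revert n; decide +kernel
  · right; right; right; right
    obtain ⟨m, hm⟩ : ∃ m, (n - 1) / 5 = m + 6 := ⟨(n - 1) / 5 - 6, by omega⟩
    have h1 := big_aux m
    have h2 : Nat.gcd (2 ^ n - 1) n ≤ n := Nat.gcd_le_right _ (by omega)
    rw [hm]
    omega

def Sm (n : ℕ) : Prop :=
  (∀ i < n, ∀ j < n, n * 2 ^ i ≡ n * 2 ^ j [MOD 2 ^ n - 1] → i = j) ∧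
  (∀ i < n, ∀ j < n, ∀ k < n, n * (2 ^ i + 2 ^ j) ≡ n * 2 ^ k [MOD 2 ^ n - 1] → i = j) ∧
  (∀ i < n, ∀ j < n, ∀ a < n, ∀ c < n,
    n * ((2 ^ i + 2 ^ j) * 2 ^ a + 2 ^ c) ≡ n * (2 ^ i + 2 ^ j) [MOD 2 ^ n - 1] →
    ∀ a' < n, ∀ c' < n,
    n * ((2 ^ i + 2 ^ j) * 2 ^ a' + 2 ^ c') ≡ n * (2 ^ i + 2 ^ j) [MOD 2 ^ n - 1] → a = a' ∧ c = c')

set_option synthInstance.maxSize 4096 in
instance (n : ℕ) : Decidable (Sm n) := by unfold Sm; infer_instance

theorem sm6 : Sm 6 := by decide +kernel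
theorem sm12 : Sm 12 := by decide +kernel
theorem sm18 : Sm 18 := by decide +kernel

variable {F : Type*} [Field F] [Fintype F] [CharP F 2]

/-- The order of `μ` is nearly `|F| - 1`. -/
def Pr (μ : F) : Prop := μ ≠ 0 ∧ Fintype.card F - 1 ∣ Nat.card (F ≃+* F) * orderOf μ

theorem Pr.of_pow {l μ : F} (hl : Pr l) (hμ : μ ≠ 0) {a : ℕ} (h : l = μ ^ a) : Pr μ :=
  ⟨hμ, hl.2.trans (mul_dvd_mul_left _ (h ▸ orderOf_pow_dvd a))⟩

theorem Pr.of_mul {l μ : F} (hl : Pr l) {σ τ : F ≃+* F} (h : σ μ * τ μ = l) : Pr μ := by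
  have hμ : μ ≠ 0 := by rintro rfl; exact hl.1 (by simpa using h.symm)
  obtain ⟨a, ha⟩ := aut_eq_pow σ
  obtain ⟨b, hb⟩ := aut_eq_pow τ
  exact hl.of_pow hμ (a := a + b) (by rw [← h, ha μ hμ, hb μ hμ, pow_add])

theorem Pr.of_map {μ : F} {σ : F ≃+* F} (hl : Pr (σ μ)) : Pr μ := by
  have hμ : μ ≠ 0 := by rintro rfl; exact hl.1 (by simp)
  obtain ⟨a, ha⟩ := aut_eq_pow σ
  exact hl.of_pow hμ (ha μ hμ)

theorem Pr.modEq {μ : F} (hμ : Pr μ) {n : ℕ} (hn : Fintype.card F = 2 ^ n) {A B : ℕ}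
    (h : μ ^ A = μ ^ B) : n * A ≡ n * B [MOD 2 ^ n - 1] := by
  have h1 : A ≡ B [MOD orderOf μ] := by
    have e : orderOf (Units.mk0 μ hμ.1) = orderOf μ := by rw [← orderOf_units]; rfl
    rw [← e, ← pow_eq_pow_iff_modEq]
    exact Units.ext (by simpa using h)
  have h2 := hμ.2
  rw [hn, H09.card_ringAut hn] at h2
  exact (h1.mul_left' n).of_dvd h2

theorem exists_lt {n : ℕ} (hn : Fintype.card F = 2 ^ n) (hn0 : 0 < n) (σ : F ≃+* F) :
    ∃ j < n, σ = Fr F ^ j := by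
  obtain ⟨j, rfl⟩ := exists_Fr_pow σ
  have h1 : Fr F ^ n = 1 := RingEquiv.ext fun x => by
    rw [Fr_pow_apply, ← hn, FiniteField.pow_card]; rfl
  exact ⟨j % n, Nat.mod_lt _ hn0, by
    conv_lhs => rw [← Nat.div_add_mod j n, pow_add, pow_mul, h1, one_pow, one_mul]⟩

theorem pow_congr {n : ℕ} (hn : Fintype.card F = 2 ^ n) {x : F} (hx : x ≠ 0) {A B : ℕ}
    (h : A ≡ B [MOD 2 ^ n - 1]) : x ^ A = x ^ B := by
  have h1 := FiniteField.pow_card_sub_one_eq_one x hx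
  rw [hn] at h1
  rw [← Nat.div_add_mod A (2 ^ n - 1), ← Nat.div_add_mod B (2 ^ n - 1), pow_add, pow_add, pow_mul,
    pow_mul, h1, one_pow, one_pow, h]

theorem Pr.dich (hF : 2 < Fintype.card F) {μ : F} (hμ : Pr μ) :
    (∀ a b c s t : F ≃+* F, a μ * b μ * c μ = s μ * t μ → ∀ x, a x * b x * c x = s x * t x) ∨
      ∃ n, 0 < n ∧ Fintype.card F = 2 ^ n ∧ Sm n := by
  obtain ⟨n, hn0, hn⟩ := card_two_pow (F := F)
  rcases ncases n with rfl | rfl | rfl | hD
  · exact Or.inr ⟨_, hn0, hn, sm6⟩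
  · exact Or.inr ⟨_, hn0, hn, sm12⟩
  · exact Or.inr ⟨_, hn0, hn, sm18⟩
  left
  intro a b c s t h x
  by_cases hx : x = 0
  · simp [hx]
  have hn2 : 2 ≤ n := by
    by_contra h2
    obtain rfl : n = 1 := by omega
    omega
  obtain ⟨a, rfl⟩ := exists_Fr_pow a
  obtain ⟨b, rfl⟩ := exists_Fr_pow b
  obtain ⟨c, rfl⟩ := exists_Fr_pow c
  obtain ⟨s, rfl⟩ := exists_Fr_pow s
  obtain ⟨t, rfl⟩ := exists_Fr_pow t
  simp only [Fr_pow_apply, ← pow_add] at h ⊢
  exact pow_congr hn hx (transfer hn2 hD (hμ.modEq hn h))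

theorem Pr.W21p (hF : 2 < Fintype.card F) {μ : F} (hμ : Pr μ) {σ τ ρ : F ≃+* F}
    (h : σ μ * τ μ = ρ μ) : σ = τ := by
  rcases hμ.dich hF with h1 | ⟨n, hn0, hn, -, h1, -⟩
  · refine W21' (ρ := ρ) fun x => ?_
    by_cases hx : x = 0
    · simp [hx]
    exact mul_right_cancel₀ hx (h1 σ τ 1 ρ 1 (by rw [h]) x)
  · obtain ⟨i, hi, rfl⟩ := exists_lt hn hn0 σ
    obtain ⟨j, hj, rfl⟩ := exists_lt hn hn0 τ
    obtain ⟨k, hk, rfl⟩ := exists_lt hn hn0 ρ
    simp only [Fr_pow_apply, ← pow_add] at h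
    rw [h1 i hi j hj k hk (hμ.modEq hn h)]

theorem Pr.aut_ext (hF : 2 < Fintype.card F) {μ : F} (hμ : Pr μ) {σ τ : F ≃+* F}
    (h : σ μ = τ μ) : σ = τ :=
  hμ.W21p hF (ρ := Fr F * σ) (by rw [RingAut.mul_apply, Fr_apply, ← h])

theorem Pr.ne_one (hF : 2 < Fintype.card F) {μ : F} (hμ : Pr μ) : μ ≠ 1 := by
  rintro rfl
  exact Fr_ne_one hF (hμ.aut_ext hF (by simp))

theorem Pr.U (hF : 2 < Fintype.card F) {μ : F} (hμ : Pr μ) {σ τ α γ α' γ' : F ≃+* F}
    (h : α (σ μ * τ μ) * γ μ = σ μ * τ μ) (h' : α' (σ μ * τ μ) * γ' μ = σ μ * τ μ) :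
    α = α' ∧ γ = γ' := by
  rcases hμ.dich hF with h1 | ⟨n, hn0, hn, -, -, h1⟩
  · obtain ⟨g, hg⟩ := exists_prim (F := F)
    refine H02.Hig.U hF hg (σ := σ) (τ := τ) ?_ ?_
    · simpa using h1 (α * σ) (α * τ) γ σ τ (by simpa using h) g
    · simpa using h1 (α' * σ) (α' * τ) γ' σ τ (by simpa using h') g
  · obtain ⟨i, hi, rfl⟩ := exists_lt hn hn0 σ
    obtain ⟨j, hj, rfl⟩ := exists_lt hn hn0 τ
    obtain ⟨a, ha, rfl⟩ := exists_lt hn hn0 α
    obtain ⟨c, hc, rfl⟩ := exists_lt hn hn0 γ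
    obtain ⟨a', ha', rfl⟩ := exists_lt hn hn0 α'
    obtain ⟨c', hc', rfl⟩ := exists_lt hn hn0 γ'
    simp only [Fr_pow_apply, ← pow_add, ← pow_mul] at h h'
    obtain ⟨rfl, rfl⟩ := h1 i hi j hj a ha c hc (hμ.modEq hn h) a' ha' c' hc' (hμ.modEq hn h')
    exact ⟨rfl, rfl⟩

/-- An additive map vanishing on all `μ ^ m * w` vanishes. -/
theorem Pr.add_zero (hF : 2 < Fintype.card F) {μ : F} (hμ : Pr μ) (f : F →+ F)
    (h : ∀ m : ℕ, f (μ ^ m) = 0) (x : F) : f x = 0 := by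
  classical
  obtain ⟨c, hc⟩ := add_expand f
  have h1 : ∀ σ, c σ = 0 := fun σ => by
    have := avg (fun τ : F ≃+* F => τ μ) (fun τ => by simpa using hμ.1) (ν := σ μ)
      (by simpa using hμ.1) c 0 fun m => by
        rw [mul_zero, ← h m, hc]
        exact Finset.sum_congr rfl fun τ _ => by rw [map_pow, mul_comm]
    rw [Finset.sum_eq_single σ (fun τ _ hτ => if_neg fun e => hτ (hμ.aut_ext hF e))
      (fun e => absurd (Finset.mem_univ _) e), if_pos rfl] at this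
    exact this.symm
  simp [hc, h1]

theorem Pr.span (hF : 2 < Fintype.card F) {μ : F} (hμ : Pr μ) (U : AddSubgroup F) {w : F}
    (hw : w ≠ 0) (h : ∀ m : ℕ, μ ^ m * w ∈ U) (x : F) : x ∈ U := by
  let _ : Algebra (ZMod 2) F := ZMod.algebra F 2
  by_contra hx
  obtain ⟨f, hf0, hf⟩ := Submodule.exists_le_ker_of_lt_top (AddSubgroup.toZModSubmodule 2 U)
    (lt_top_iff_ne_top.2 fun e => hx (by
      have : x ∈ AddSubgroup.toZModSubmodule 2 U := e ▸ Submodule.mem_top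
      simpa using this))
  apply hf0
  ext y
  have := hμ.add_zero hF (AddMonoidHom.mk' (fun y => algebraMap (ZMod 2) F (f (y * w)))
    fun a b => by rw [add_mul, map_add, map_add]) (fun m => by
      have : f (μ ^ m * w) = 0 := hf (by simpa using h m)
      simp [this]) (y / w)
  simpa [div_mul_cancel₀ y hw] using this

/-- Commuting idempotents normalised by a scalar of large order are `0` or `1`. -/
theorem L3alg (hF : 2 < Fintype.card F) {I : Type*} [Finite I] {l : F} (hl : Pr l) (η : I → F →+ F)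
    (hid : ∀ i v, η i (η i v) = η i v) (hc : ∀ i j v, η i (η j v) = η j (η i v))
    (hl' : ∀ i, ∃ j, ∀ v, η i (l * v) = l * η j v) (i : I) : (∀ v, η i v = 0) ∨ ∀ v, η i v = v := by
  classical
  have := Fintype.ofFinite I
  obtain ⟨w, hw, hmax⟩ := Finset.exists_max_image (Finset.univ.filter fun w : F => w ≠ 0)
    (fun w => (Finset.univ.filter fun i => η i w = 0).card) ⟨1, by simp⟩
  have hw0 : w ≠ 0 := by simpa using hw
  have h1 : ∀ i, η i w = 0 ∨ η i w = w := by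
    intro i
    by_contra hne
    push Not at hne
    refine (hmax (w + η i w) (by
      simpa using fun e => hne.2 (eq_of_add_eq_zero e).symm)).not_gt (Finset.card_lt_card ⟨?_, ?_⟩)
    · intro j hj
      simp only [Finset.mem_filter, Finset.mem_univ, true_and] at hj ⊢
      rw [map_add, hc, hj, map_zero, add_zero]
    · intro h
      have := h (x := i) (by simp [hid, CharTwo.add_self_eq_zero])
      exact hne.1 (by simpa using this)
  have h2 : ∀ n : ℕ, ∀ i, η i (l ^ n * w) = 0 ∨ η i (l ^ n * w) = l ^ n * w := by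
    intro n
    induction n with
    | zero => simpa using h1
    | succ n ih =>
      intro i
      obtain ⟨j, hj⟩ := hl' i
      rw [pow_succ', mul_assoc, hj]
      rcases ih j with h | h
      · left; rw [h, mul_zero]
      · right; rw [h]
  obtain ⟨c, hc⟩ := add_expand (AddMonoidHom.mk' (fun x => η i (x * w))
    fun a b => by rw [add_mul, map_add])
  replace hc : ∀ x, η i (x * w) = ∑ σ, c σ * σ x := hc
  have h3 : ∀ σ : F ≃+* F, σ ≠ 1 → c σ = 0 := fun σ hσ => by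
    have := avg (ι := (F ≃+* F) ⊕ (F ≃+* F))
      (Sum.elim (fun τ => τ l * τ l) fun τ => l * τ l)
      (by rintro (τ | τ) <;> simpa using hl.1) (ν := l * σ l) (by simpa using hl.1)
      (Sum.elim (fun τ => c τ * c τ) fun τ => w * c τ) 0 fun m => by
        rw [mul_zero, Fintype.sum_sum_type]
        simp only [Sum.elim_inl, Sum.elim_inr]
        have e1 : ∑ τ, (τ l * τ l) ^ m * (c τ * c τ) = η i (l ^ m * w) * η i (l ^ m * w) := by
          rw [← Fr_apply, hc, map_sum]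
          exact Finset.sum_congr rfl fun τ _ => by rw [Fr_apply, map_pow]; ring
        have e2 : ∑ τ, (l * τ l) ^ m * (w * c τ) = l ^ m * w * η i (l ^ m * w) := by
          rw [hc, Finset.mul_sum]
          exact Finset.sum_congr rfl fun τ _ => by rw [map_pow]; ring
        rw [e1, e2]
        rcases h2 m i with e | e <;> rw [e]
        · simp
        · exact (CharTwo.add_self_eq_zero _).symm
    rw [Fintype.sum_sum_type, Finset.sum_eq_zero fun τ _ => if_neg fun e => hσ (hl.W21p hF (σ := 1) (τ := σ)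
        (ρ := Fr F * τ) (by rw [RingAut.mul_apply, Fr_apply]; exact e.symm)).symm,
      zero_add, Finset.sum_eq_single σ ?_ (fun e => absurd (Finset.mem_univ _) e)] at this
    swap
    · exact fun τ _ hτ => if_neg fun e => hτ (hl.aut_ext hF (mul_left_cancel₀ hl.1 e))
    replace this : 0 = w * c σ := this.trans (if_pos rfl)
    exact (mul_eq_zero.1 this.symm).resolve_left hw0
  have h4 : ∀ x, η i (x * w) = c 1 * x := fun x => by
    rw [hc, Finset.sum_eq_single 1 (fun τ _ hτ => by rw [h3 τ hτ, zero_mul])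
      (fun e => absurd (Finset.mem_univ _) e)]; rfl
  have h5 := h4 1
  rw [one_mul, mul_one] at h5
  rcases h1 i with e | e
  · left; intro v
    rw [← div_mul_cancel₀ v hw0, h4, ← h5, e, zero_mul]
  · right; intro v
    conv_lhs => rw [← div_mul_cancel₀ v hw0, h4, ← h5, e]
    field_simp

theorem surj (hF : 2 < Fintype.card F) {G : Type*} [Group G] {k : G} {A B : Subgroup G} {μ : F}
    {π : G → F} (h : Co k A B μ π) (hμ : Pr μ) (hne : ¬ A ≤ B) (a : F) : ∃ x ∈ A, π x = a := by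
  obtain ⟨x, hx, hxB⟩ := SetLike.not_le_iff_exists.1 hne
  have hx0 : π x ≠ 0 := fun e => hxB ((h.ker x hx).1 e)
  let U : AddSubgroup F :=
    { carrier := {a | ∃ x ∈ A, π x = a}
      zero_mem' := ⟨1, one_mem _, h.add.one⟩
      add_mem' := by
        rintro _ _ ⟨x, hx, rfl⟩ ⟨y, hy, rfl⟩
        exact ⟨x * y, mul_mem hx hy, h.add x hx y hy⟩
      neg_mem' := by
        rintro _ ⟨x, hx, rfl⟩
        exact ⟨x⁻¹, inv_mem hx, h.add.inv hx⟩ }
  exact hμ.span hF U hx0 (fun m => ⟨_, BG.conj_mem_of_norm (pow_mem h.kn m) hx, h.pow hx m⟩) a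

end H21.SH
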