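import Mathlib
import Cfsg.Agent.BG.Api3
import Cfsg.Agent.H21.SH2

/-!
# Groups of odd order transitive on the involutions of a 2-group act faithfully on them
-/

set_option linter.unusedSectionVars false

namespace H21.SH

open Cfsg BG Subgroup H02.Suz H02.Hig
open scoped commutatorElement

local notation "#" => Nat.card

variable {G : Type*} [Group G]

/-- `K` normalises the 2-group `S` and is transitive on its involutions. -/
structure HT (S Z K : Subgroup G) : Prop where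
  pg : IsPGroup 2 S
  kn : K ≤ N_(S)
  mem : ∀ x, x ∈ Z ↔ x ∈ S ∧ x * x = 1
  tr : ∀ x ∈ Z, x ≠ 1 → ∀ y ∈ Z, y ≠ 1 → ∃ g ∈ K, g * x * g⁻¹ = y
  big : 2 < # Z

variable [Finite G]

namespace HT

variable {S Z K : Subgroup G} (h : HT S Z K)
include h

theorem Z_le_S : Z ≤ S := fun x hx => ((h.mem x).1 hx).1

theorem Z_sq {z : G} (hz : z ∈ Z) : z * z = 1 := ((h.mem z).1 hz).2

theorem Z_ne : Z ≠ ⊥ := by
  rintro rfl
  have := h.big
  simp at *

theorem exists_invol {Y : Subgroup G} (hY : Y ≤ S) (h0 : Y ≠ ⊥) : ∃ z ∈ Y, z ∈ Z ∧ z ≠ 1 := by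
  obtain ⟨z, hz, h2⟩ := H08.even_card_iff.1
    (even_iff_two_dvd.2 (pg_dvd Nat.prime_two (pg_le h.pg hY) h0))
  exact ⟨z, hz, (h.mem z).2 ⟨hY hz, H08.mul_self_of_orderOf h2⟩, H08.ne_one_of_orderOf h2⟩

theorem Z_le {Y : Subgroup G} (hY : Y ≤ S) (hk : K ≤ N_(Y)) (h0 : Y ≠ ⊥) : Z ≤ Y := by
  obtain ⟨z, hz, hzZ, hz1⟩ := h.exists_invol hY h0
  intro y hy
  by_cases hy1 : y = 1
  · rw [hy1]; exact one_mem _
  obtain ⟨g, hg, rfl⟩ := h.tr z hzZ hz1 y hy hy1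
  exact conj_mem_of_norm (hk hg) hz

theorem Z_cent : Z ≤ C_(S) :=
  (h.Z_le inf_le_left (norm_inf h.kn (norm_cent h.kn))
    (pg_center_ne_bot Nat.prime_two h.pg (ne_bot_mono h.Z_ne h.Z_le_S))).trans inf_le_right

theorem comm_Z {g z : G} (hg : g ∈ S) (hz : z ∈ Z) : ⁅g, z⁆ = 1 :=
  commutatorElement_eq_one_iff_mul_comm.2 (h.Z_cent hz g hg)

theorem sub {D : Subgroup G} (hD : D ≤ S) (hk : K ≤ N_(D)) (h0 : D ≠ ⊥) : HT D Z K :=
  ⟨pg_le h.pg hD, hk, fun x => ⟨fun hx => ⟨h.Z_le hD hk h0 hx, h.Z_sq hx⟩,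
    fun hx => (h.mem x).2 ⟨hD hx.1, hx.2⟩⟩, h.tr, h.big⟩

theorem two_pow : ∃ m, 0 < m ∧ # Z = 2 ^ m := by
  obtain ⟨m, hm⟩ := pg_card Nat.prime_two (pg_le h.pg h.Z_le_S)
  refine ⟨m, Nat.pos_of_ne_zero ?_, hm⟩
  rintro rfl
  have := h.big
  omega

theorem card_of_sq (hsq : ∀ g ∈ S, g * g ∈ Z) (hne : S ≠ Z) :
    ∃ z₀ ∈ Z, z₀ ≠ 1 ∧ (# {x : S // x.1 * x.1 = z₀} = # Z ∨
      # {x : S // x.1 * x.1 = z₀} = # Z * (# Z + 1)) := by
  classical
  have := Fintype.ofFinite S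
  have := Fintype.ofFinite Z
  obtain ⟨z₀, hz₀, hz₁⟩ := exists_mem_ne_one h.Z_ne
  obtain ⟨χ, hχ, -, hχ1⟩ := exists_functional (M := ZMod 2) (B := ⊥) CharTwo.add_self_eq_zero
    (fun x hx => h.Z_sq hx) bot_le hz₀ hz₁ 1
  let sq : S → Z := fun x => ⟨x * x, hsq x x.2⟩
  let n : Z → ℕ := fun z => (Finset.univ.filter fun x => sq x = z).card
  have hn1 : n 1 = # Z := by
    rw [Nat.card_eq_fintype_card, ← Finset.card_univ]
    refine Finset.card_bij (fun x hx => ⟨x.1, (h.mem _).2 ⟨x.2, congrArg Subtype.val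
      (Finset.mem_filter.1 hx).2⟩⟩) (fun _ _ => Finset.mem_univ _)
      (fun x _ y _ e => Subtype.ext (congrArg Subtype.val e :)) fun z _ =>
        ⟨⟨z, h.Z_le_S z.2⟩, Finset.mem_filter.2 ⟨Finset.mem_univ _, Subtype.ext (h.Z_sq z.2)⟩, rfl⟩
  have hn2 : ∀ z : Z, z ≠ 1 → n z = n ⟨z₀, hz₀⟩ := fun z hz => by
    obtain ⟨g, hk, hi⟩ := h.tr z z.2 (fun e => hz (Subtype.ext e)) z₀ hz₀ hz₁
    replace hk := h.kn hk
    refine Finset.card_bij (fun x _ => ⟨g * x * g⁻¹, conj_mem_of_norm hk x.2⟩)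
      (fun x hx => Finset.mem_filter.2 ⟨Finset.mem_univ _, Subtype.ext ?_⟩)
      (fun x _ y _ e => Subtype.ext (by simpa using e)) fun y hy =>
        ⟨⟨g⁻¹ * y * g, conj_mem_of_norm' hk y.2⟩,
          Finset.mem_filter.2 ⟨Finset.mem_univ _, Subtype.ext ?_⟩, Subtype.ext (by simp [mul_assoc])⟩
    · have : x.1 * x = z := congrArg Subtype.val (Finset.mem_filter.1 hx).2
      simp only [sq, ← hi, ← this]; group
    · have : y.1 * y = z₀ := congrArg Subtype.val (Finset.mem_filter.1 hy).2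
      rw [← hi] at this
      calc _ = g⁻¹ * (y.1 * y) * g := by simp only [sq]; group
        _ = _ := by rw [this]; group
  have hsum : ∀ φ : Z → ℤ, ∑ x, φ (sq x) =
      # Z * φ 1 + n ⟨z₀, hz₀⟩ * (∑ z, φ z - φ 1) := fun φ => by
    rw [← Finset.sum_fiberwise_of_maps_to (t := Finset.univ) (g := sq) fun _ _ => Finset.mem_univ _,
      Finset.sum_congr rfl fun z _ => show ∑ x with sq x = z, φ (sq x) = n z * φ z from by
        rw [Finset.sum_congr rfl fun x hx => by rw [(Finset.mem_filter.1 hx).2]]; simp [n],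
      ← Finset.add_sum_erase _ _ (Finset.mem_univ 1), hn1,
      ← Finset.add_sum_erase _ _ (Finset.mem_univ 1), add_sub_cancel_left, Finset.mul_sum]
    congr 1
    exact Finset.sum_congr rfl fun z hz => by rw [hn2 z (Finset.ne_of_mem_erase hz)]
  have s1 := hsum fun _ => 1
  have s2 := hsum fun z => sg (χ z)
  rw [((sum_sg hχ).resolve_left fun e => by simpa [hχ1] using e.2 z₀ hz₀).1] at s2
  simp only [OneMemClass.coe_one, hχ.one, show sg 0 = 1 from rfl, Finset.sum_const,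
    Finset.card_univ, ← Nat.card_eq_fintype_card (α := S), ← Nat.card_eq_fintype_card (α := Z),
    nsmul_eq_mul, mul_one, sq] at s1 s2
  have cz : ∀ x ∈ S, ∀ y ∈ S, ⁅x, y⁆ ∈ Z := fun x hx y hy => comm_mem_of_sq hsq hx hy
  have cj : ∀ g ∈ S, ∀ z ∈ Z, g * z * g⁻¹ = z := fun g hg z hz => by
    rw [h.Z_cent hz g hg]; group
  have a1 : ∀ w ∈ S, AddOn S fun x => χ ⁅x, w⁆ := fun w hw x hx y hy => by
    have : ⁅x * y, w⁆ = x * ⁅y, w⁆ * x⁻¹ * ⁅x, w⁆ := by simp only [commutatorElement_def]; group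
    simp only
    rw [this, cj x hx _ (cz y hy w hw), hχ _ (cz y hy w hw) _ (cz x hx w hw), add_comm]
  have a2 : ∀ x ∈ S, ∀ w ∈ S, χ (x * w * (x * w)) = χ (x * x) + χ (w * w) + χ ⁅x, w⁆ :=
    fun x hx w hw => by
      have : x * w * (x * w) = x * x * ⁅x⁻¹, w⁆ * (w * w) := by
        simp only [commutatorElement_def]; group
      rw [this, hχ _ (mul_mem (hsq x hx) (cz _ (inv_mem hx) w hw)) _ (hsq w hw),
        hχ _ (hsq x hx) _ (cz _ (inv_mem hx) w hw), (a1 w hw).inv hx, ZMod.neg_eq_self_mod_two]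
      ring
  let R : Subgroup G :=
    { carrier := {w | w ∈ S ∧ ∀ x ∈ S, χ ⁅x, w⁆ = 0}
      one_mem' := ⟨one_mem _, fun x _ => by simp [hχ.one]⟩
      mul_mem' := fun {v w} hv hw => ⟨mul_mem hv.1 hw.1, fun x hx => by
        have : ⁅x, v * w⁆ = ⁅x, v⁆ * (v * ⁅x, w⁆ * v⁻¹) := by
          simp only [commutatorElement_def]; group
        rw [this, cj v hv.1 _ (cz x hx w hw.1), hχ _ (cz x hx v hv.1) _ (cz x hx w hw.1),
          hv.2 x hx, hw.2 x hx, add_zero]⟩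
      inv_mem' := fun {w} hw => ⟨inv_mem hw.1, fun x hx => by
        have : ⁅x, w⁻¹⁆ = w⁻¹ * ⁅x, w⁆⁻¹ * w⁻¹⁻¹ := by simp only [commutatorElement_def]; group
        rw [this, cj _ (inv_mem hw.1) _ (inv_mem (cz x hx w hw.1)), hχ.inv (cz x hx w hw.1),
          hw.2 x hx, neg_zero]⟩ }
  have := Fintype.ofFinite R
  have s3 : (∑ x : S, sg (χ (x * x))) ^ 2 = # S * ∑ w : R, sg (χ (w * w)) := by
    rw [pow_two, Finset.sum_mul_sum, Finset.sum_congr rfl fun x _ =>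
      (Equiv.sum_comp (Equiv.mulLeft x) _).symm, Finset.sum_comm]
    have e1 : ∀ w x : S, sg (χ (x * x)) * sg (χ (↑(Equiv.mulLeft x w) * ↑(Equiv.mulLeft x w))) =
        sg (χ (w * w)) * sg (χ ⁅x.1, w.1⁆) := fun w x => by
      simp only [Equiv.coe_mulLeft, coe_mul, a2 x x.2 w w.2, ← sg_add]
      congr 1
      rw [← add_assoc, ← add_assoc, CharTwo.add_self_eq_zero, zero_add]
    simp only [e1, ← Finset.mul_sum]
    rw [Finset.mul_sum, ← Finset.sum_filter_of_ne (p := fun w : S => w.1 ∈ R) fun w _ hw => by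
      rcases sum_sg (a1 w w.2) with e | e
      · exact ⟨w.2, e.2⟩
      · exact absurd (by rw [e.1, mul_zero]) hw]
    refine Finset.sum_bij (fun w hw => ⟨w.1, (Finset.mem_filter.1 hw).2⟩)
      (fun _ _ => Finset.mem_univ _) (fun x _ y _ e => Subtype.ext (congrArg Subtype.val e :))
      (fun w _ => ⟨⟨w.1, w.2.1⟩, Finset.mem_filter.2 ⟨Finset.mem_univ _, w.2⟩, rfl⟩) fun w hw => ?_
    rcases sum_sg (a1 w w.2) with e | ⟨-, x, hx, e⟩
    · rw [e.1, mul_comm]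
    · exact absurd ((Finset.mem_filter.1 hw).2.2 x hx) e
  have s4 : (# Z : ℤ) ∣ ∑ w : R, sg (χ (w * w)) := by
    rcases sum_sg (A := R) (f := fun w => χ (w * w)) (fun v hv w hw => by
      simp only [a2 v hv.1 w hw.1, hw.2 v hv.1, add_zero]) with e | e
    · rw [e.1]
      exact Int.natCast_dvd_natCast.2 (card_dvd_of_le fun z hz => ⟨h.Z_le_S hz, fun x hx => by
        rw [h.comm_Z hx hz, hχ.one]⟩)
    · rw [e.1]; exact dvd_zero _
  obtain ⟨m, hm, hq⟩ := h.two_pow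
  obtain ⟨s, hs⟩ := pg_card Nat.prime_two h.pg
  have hlt := H02.card_lt_of_lt (h.Z_le_S.lt_of_ne hne.symm)
  rw [hq, hs, Nat.pow_lt_pow_iff_right Nat.one_lt_two] at hlt
  obtain ⟨j, rfl⟩ := Nat.exists_eq_add_of_le hlt.le
  rw [hq, hs, pow_add] at s1
  rw [hq] at s2 s4
  rw [s2, hs, pow_add] at s3
  have := card_arith (n := m) (j := j) (c := n ⟨z₀, hz₀⟩) hm (by omega) (by
    zify [Nat.one_le_two_pow (n := m)]
    push_cast at s1
    linear_combination -s1) (by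
    obtain ⟨e, he⟩ := s4
    refine ⟨e, ?_⟩
    rw [he] at s3
    push_cast at s3 ⊢
    linear_combination s3)
  have hc : # {x : S // x.1 * x.1 = z₀} = n ⟨z₀, hz₀⟩ := by
    rw [Nat.card_eq_fintype_card, Fintype.card_subtype]
    congr 1
    ext x
    simp [sq, Subtype.ext_iff]
  refine ⟨z₀, hz₀, hz₁, ?_⟩
  rw [hc, hq]
  have h1 : ((2 : ℤ) ^ m - 1) ≠ 0 := by
    have : (1 : ℤ) < 2 ^ m := one_lt_pow₀ one_lt_two hm.ne'
    omega
  push_cast at s1
  rcases this with rfl | rfl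
  · left
    zify
    apply mul_right_cancel₀ h1
    linear_combination -s1
  · right
    zify
    apply mul_right_cancel₀ h1
    rw [two_mul, pow_add] at s1
    linear_combination -s1

theorem faithful (hs : Group.IsSolvable K) (hπ : ∀ r : ℕ, r.Prime → r ∣ # K → r ∣ # Z - 1)
    (hf : K ⊓ C_(S) = ⊥) : K ⊓ C_(Z) = ⊥ := by
  classical
  by_contra h0
  obtain ⟨r, hr, hR0⟩ := exists_pcore_ne_bot (sol_of_le hs inf_le_left) h0
  have hZn : K ≤ N_(Z) := fun k hk => mem_norm_of_conj fun x hx => (h.mem _).2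
    ⟨conj_mem_of_norm (h.kn hk) (h.Z_le_S hx), by
      calc _ = k * (x * x) * k⁻¹ := by group
        _ = 1 := by rw [h.Z_sq hx]; group⟩
  have hKR : K ≤ N_(piCoreOf {r} (K ⊓ C_(Z))) := norm_pcore _ (le_norm_inf_cent hZn)
  have hRp := pcore_pg hr (K ⊓ C_(Z))
  have hRle := pcore_le {r} (K ⊓ C_(Z))
  generalize piCoreOf {r} (K ⊓ C_(Z)) = R at hR0 hKR hRp hRle
  have hRK : R ≤ K := hRle.trans inf_le_left
  have hRZ : R ≤ C_(Z) := hRle.trans inf_le_right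
  obtain ⟨m, hm, hq⟩ := h.two_pow
  have hr1 : r ∣ # Z - 1 := hπ r hr ((pg_dvd hr hRp hR0).trans (card_dvd_of_le hRK))
  have hq1 : 1 ≤ # Z := by have := h.big; omega
  have hrq : ¬ r ∣ # Z := fun e => hr.not_dvd_one (by
    have := Nat.dvd_sub e hr1
    rwa [Nat.sub_sub_self hq1] at this)
  have hr2 : r ≠ 2 := by
    rintro rfl
    exact hrq (hq ▸ dvd_pow_self 2 hm.ne')
  obtain ⟨D, -, ⟨hDS, hKD, hRD⟩, hmin⟩ := exists_minimal_le_of_wellFoundedLT
    (fun D : Subgroup G => D ≤ S ∧ K ≤ N_(D) ∧ ¬ R ≤ C_(D)) S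
    ⟨le_rfl, h.kn, fun e => hR0 (eq_bot_mono hf (le_inf hRK e))⟩
  have hDp := pg_le h.pg hDS
  have hRn : R ≤ N_(D) := hRK.trans hKD
  have hco : (# R).Coprime (# D) := pg_coprime_ne hr Nat.prime_two hRp hDp hr2
  have hsR : Group.IsSolvable R := sol_of_le hs hRK
  have hE : D ≤ ⁅D, R⁆ := hmin ⟨(comm_le_left hRn).trans hDS, norm_comm hKD hKR,
    fun e => hRD (coprime_cent_of_comm hRn hco (Or.inl hsR) (cent_symm e))⟩ (comm_le_left hRn)
  have hD0 : D ≠ ⊥ := by rintro rfl; exact hRD (by simp)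
  have hΦ : R ≤ C_(frattiniOf D) := by
    by_contra e
    exact (phi_lt hD0).not_ge (hmin ⟨(phi_le D).trans hDS, norm_phi hKD, e⟩ (phi_le D))
  have hΦD : D ≤ C_(frattiniOf D) := hE.trans (comm_eq_bot.1 (three_subgroup
    (by rw [comm_eq_bot.2 hΦ]; simp)
    (comm_eq_bot.2 ((comm_le_left (norm_phi (le_norm D))).trans (cent_symm hΦ)))))
  have hs2 : ∀ x ∈ D, x * x ∈ frattiniOf D := fun x hx => by
    rw [← pow_two]; exact pow_mem_phi Nat.prime_two hDp hx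
  have hc2 : ∀ x ∈ D, ∀ y ∈ D, ⁅x, y⁆ ∈ Z := fun x hx y hy => by
    have e1 : ⁅x, y⁆ ∈ frattiniOf D := der_le_phi Nat.prime_two hDp (commutator_mem_commutator hx hy)
    refine (h.mem _).2 ⟨hDS (phi_le D e1), ?_⟩
    have e2 := comm_sq_left x y
    rwa [commutatorElement_eq_one_iff_mul_comm.2 (hΦD hy _ (hs2 x hx)),
      commutatorElement_eq_one_iff_mul_comm.2 (hΦD hx _ e1).symm, one_mul, eq_comm] at e2
  let T : Subgroup G :=
    { carrier := {g | g ∈ D ∧ g * g ∈ Z}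
      one_mem' := ⟨one_mem _, by simp⟩
      mul_mem' := fun {x y} hx hy => ⟨mul_mem hx.1 hy.1, by
        have : x * y * (x * y) = x * x * ⁅x⁻¹, y⁆ * (y * y) := by
          simp only [commutatorElement_def]; group
        rw [this]
        exact mul_mem (mul_mem hx.2 (hc2 _ (inv_mem hx.1) _ hy.1)) hy.2⟩
      inv_mem' := fun {x} hx => ⟨inv_mem hx.1, by rw [← mul_inv_rev]; exact inv_mem hx.2⟩ }
  have hT : D ≤ T := hE.trans (commutator_le.2 fun x hx ρ hρ => by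
    have hy := conj_mem_of_norm (hRn hρ) (inv_mem hx)
    have e0 : ⁅x, ρ⁆ = x * (ρ * x⁻¹ * ρ⁻¹) := by rw [commutatorElement_def]; group
    refine ⟨e0 ▸ mul_mem hx hy, ?_⟩
    have e1 : ρ * x⁻¹ * ρ⁻¹ * (ρ * x⁻¹ * ρ⁻¹) = (x * x)⁻¹ := by
      calc _ = ρ * (x * x)⁻¹ * ρ⁻¹ := by group
        _ = _ := by rw [← hΦ hρ _ (inv_mem (hs2 x hx))]; group
    rw [e0]
    generalize ρ * x⁻¹ * ρ⁻¹ = y at hy e1
    have e2 : x * y * (x * y) = x * x * ⁅x⁻¹, y⁆ * (y * y) := by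
      simp only [commutatorElement_def]; group
    have e3 := hc2 _ (inv_mem hx) _ hy
    rw [e2, e1, h.Z_cent e3 _ (hDS (mul_mem hx hx)), mul_inv_cancel_right]
    exact e3)
  have hsq : ∀ x ∈ D, x * x ∈ Z := fun x hx => (hT hx).2
  have hD := h.sub hDS hKD hD0
  obtain ⟨z₀, hz₀, hz₁, hc⟩ := hD.card_of_sq hsq (by rintro rfl; exact hRD hRZ)
  let _ : MulAction R {x : D // x.1 * x.1 = z₀} :=
    { smul := fun g x => ⟨⟨g * x * g⁻¹, conj_mem_of_norm (hRn g.2) x.1.2⟩, by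
        calc _ = g.1 * (x.1.1 * x.1.1) * g.1⁻¹ := by simp only [coe_inv]; group
          _ = _ := by rw [x.2, ← hRZ g.2 z₀ hz₀]; group⟩
      one_smul := fun x => Subtype.ext (Subtype.ext (by
        show (1 : R).1 * x.1.1 * ((1 : R)⁻¹).1 = _; simp))
      mul_smul := fun g g' x => Subtype.ext (Subtype.ext (by
        show (g * g').1 * x.1.1 * ((g * g')⁻¹).1 = g.1 * (g'.1 * x.1.1 * (g'⁻¹).1) * (g⁻¹).1
        simp only [coe_mul, coe_inv]; group)) }
  have := Fact.mk hr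
  obtain ⟨x, hx⟩ := hRp.nonempty_fixed_point_of_prime_not_dvd_card {x : D // x.1 * x.1 = z₀} (by
    rcases hc with e | e <;> rw [e]
    · exact hrq
    · intro hd
      refine hr2 ((Nat.prime_dvd_prime_iff_eq hr Nat.prime_two).1 ?_)
      have := Nat.dvd_sub ((hr.dvd_mul.1 hd).resolve_left hrq) hr1
      rwa [show # Z + 1 - (# Z - 1) = 2 by omega] at this)
  have hfix : ∀ g : R, g.1 * x.1.1 * g.1⁻¹ = x.1.1 := fun g =>
    congrArg (fun y : {x : D // x.1 * x.1 = z₀} => y.1.1) (hx g)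
  obtain ⟨f, hf1, hf2, hf3⟩ := exists_functional (M := ZMod 2) CharTwo.add_self_eq_zero hsq
    hD.Z_le_S x.1.2 (fun e => hz₁ (x.2 ▸ h.Z_sq e)) 1
  have := Fintype.ofFinite R
  have hg : AddOn D fun y => ∑ g : R, f (g.1 * y * g.1⁻¹) := fun y hy y' hy' => by
    simp only
    rw [← Finset.sum_add_distrib]
    refine Finset.sum_congr rfl fun g _ => ?_
    rw [← hf1 _ (conj_mem_of_norm (hRn g.2) hy) _ (conj_mem_of_norm (hRn g.2) hy')]
    congr 1; group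
  have hk : D ≤ hg.ker := hE.trans (commutator_le.2 fun y hy ρ hρ => by
    have hy' := conj_mem_of_norm (hRn hρ) (inv_mem hy)
    have e0 : ⁅y, ρ⁆ = y * (ρ * y⁻¹ * ρ⁻¹) := by rw [commutatorElement_def]; group
    refine ⟨e0 ▸ mul_mem hy hy', ?_⟩
    have e1 := hg _ hy _ hy'
    have e2 := hg.inv hy
    simp only at e1 e2 ⊢
    rw [e0, e1, add_eq_zero_iff_eq_neg', ← e2, ← Equiv.sum_comp (Equiv.mulRight (⟨ρ, hρ⟩ : R))
      (fun g : R => f (g.1 * y⁻¹ * g.1⁻¹))]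
    refine Finset.sum_congr rfl fun g _ => ?_
    congr 1
    simp only [Equiv.coe_mulRight, coe_mul]; group)
  have e := (hk x.1.2).2
  simp only [hfix, hf3, Finset.sum_const, Finset.card_univ, nsmul_eq_mul, mul_one,
    ← Nat.card_eq_fintype_card] at e
  obtain ⟨j, hj⟩ := pg_card hr hRp
  rw [hj, ZMod.natCast_eq_zero_iff] at e
  exact hr2 ((Nat.prime_dvd_prime_iff_eq Nat.prime_two hr).1 (Nat.prime_two.dvd_of_dvd_pow e)).symm

end HT

end H21.SH
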