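import Mathlib
import Cfsg.Agent.H21.SH3
import Cfsg.Agent.S3360

/-!
# Suzuki 2-groups with a solvable transitive operator group
-/

set_option linter.unusedSectionVars false

namespace H21.SH

open Cfsg BG Subgroup H02.Suz H02.Hig
open scoped commutatorElement

local notation "#" => Nat.card

universe u

theorem hall_trans {A X : Type*} [Group A] [Finite A] [MulAction A X] [Finite X] {Y : Subgroup A}
    (hY : Group.IsSolvable Y) {I : Set X} {z : X} (hI : MulAction.orbit Y z = I) :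
    ∃ H ≤ Y, (∀ r : ℕ, r.Prime → r ∣ # H → r ∣ I.ncard) ∧ MulAction.orbit H z = I ∧
      I.ncard ∣ # H := by
  obtain ⟨H, h1, h2, h3⟩ := hall_exists {r | r ∣ I.ncard} hY
  have key : ∀ L : Subgroup A, (MulAction.stabilizer A z).relIndex L =
      (MulAction.orbit L z).ncard := fun L => MulAction.index_stabilizer L z
  have hsub : MulAction.orbit H z ⊆ I := by
    rintro _ ⟨g, rfl⟩
    exact hI ▸ ⟨⟨g, h1 g.2⟩, rfl⟩
  have h4 : I.ncard ∣ (MulAction.orbit H z).ncard := by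
    have e1 := relIndex_mul_relIndex (MulAction.stabilizer A z ⊓ H) H Y inf_le_right h1
    rw [inf_relIndex_right, key] at e1
    have e2 := relIndex_dvd_of_le_left Y (inf_le_left : MulAction.stabilizer A z ⊓ H ≤ _)
    rw [key, hI, ← e1] at e2
    exact Nat.Coprime.dvd_of_dvd_mul_right (coprime_of_forall fun p hp hd => h3 p hp hd) e2
  refine ⟨H, h1, h2, Set.eq_of_subset_of_ncard_le hsub (Nat.le_of_dvd ?_ h4), h4.trans ?_⟩
  · exact (Set.ncard_pos (Set.toFinite _)).2 ⟨z, MulAction.mem_orbit_self z⟩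
  · rw [← key]; exact BG.relIndex_dvd_card _ _

theorem exists_gen {H V F : Type*} [Group H] [Finite H] [AddCommGroup V] [Field F] [Fintype F]
    [CharP F 2] (ρ : H → V → V) (hρ : ∀ g g' v, ρ (g * g') v = ρ g (ρ g' v))
    (hi : ∀ g, (∀ v, ρ g v = v) → g = 1) (h0 : ∀ g v, ρ g v = 0 → v = 0) (e : V ≃+ F)
    (he : ∀ g, ∃ (a : F) (σ : F ≃+* F), ∀ v, e (ρ g v) = a * σ (e v))
    (hd : Fintype.card F - 1 ∣ # H) :
    ∃ (k : H) (l : F), Pr l ∧ k ^ (Fintype.card F - 1) = 1 ∧ ∀ v, e (ρ k v) = l * e v := by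
  choose a σ hσ using he
  have ha : ∀ g, e (ρ g (e.symm 1)) = a g := fun g => by rw [hσ]; simp
  have ha0 : ∀ g, a g ≠ 0 := fun g h => by
    rw [← ha, e.map_eq_zero_iff] at h
    simpa using h0 g _ h
  have ham : ∀ g g', a (g * g') = a g * σ g (a g') := fun g g' => by
    rw [← ha, hρ, hσ, ha]
  let φ : H →* (F ≃+* F) := MonoidHom.mk' σ fun g g' => RingEquiv.ext fun x => by
    have h1 := hσ (g * g') (e.symm x)
    rw [hρ, hσ, hσ, ham, map_mul, ← mul_assoc, AddEquiv.apply_symm_apply] at h1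
    exact (mul_left_cancel₀ (mul_ne_zero (ha0 g) (by simpa using ha0 g')) h1).symm
  let ψ : φ.ker →* Fˣ := MonoidHom.mk' (fun g => Units.mk0 (a g) (ha0 g)) fun g g' =>
    Units.ext (by
      have : σ g = 1 := g.2
      simp [ham, this])
  have hψ : Function.Injective ψ := (injective_iff_map_eq_one ψ).2 fun g hg => Subtype.ext
    (hi g fun v => e.injective (by
      have h1 : σ g = 1 := g.2
      have h2 : a g = 1 := congrArg Units.val hg
      rw [hσ, h1, h2]; simp))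
  obtain ⟨⟨_, k, rfl⟩, hk⟩ := IsCyclic.exists_generator (α := ψ.range)
  have h1 : orderOf (a k) = # φ.ker := by
    rw [Nat.card_congr (MonoidHom.ofInjective hψ).toEquiv, ← orderOf_eq_card_of_forall_mem_zpowers hk,
      ← Subgroup.orderOf_coe, ← orderOf_units]
    rfl
  refine ⟨k, a k, ⟨ha0 k, hd.trans ?_⟩, ?_, fun v => ?_⟩
  · rw [h1, ← φ.ker.index_mul_card, index_ker]
    exact Nat.mul_dvd_mul_right (card_subgroup_dvd_card _) _
  · have : k ^ (Fintype.card F - 1) = 1 := hψ (by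
      rw [map_pow, map_one]
      exact Units.ext (by simpa [ψ] using FiniteField.pow_card_sub_one_eq_one _ (ha0 k)))
    exact congrArg Subtype.val this
  · have h1 : σ k = 1 := k.2
    rw [hσ, h1]; rfl

theorem exists_HK {P : Type u} [Group P] [Finite P] (h2 : IsPGroup 2 P)
    (htwo : ∃ x y : P, x ≠ y ∧ x ≠ 1 ∧ x ^ 2 = 1 ∧ y ≠ 1 ∧ y ^ 2 = 1)
    (hY : ∃ Y : Subgroup (MulAut P), Group.IsSolvable Y ∧
      ∀ x y : P, x ≠ 1 → x ^ 2 = 1 → y ≠ 1 → y ^ 2 = 1 → ∃ a ∈ Y, a x = y) :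
    ∃ (G : Type u) (_ : Group G) (_ : Finite G) (S Z : Subgroup G) (k : G) (F : Type) (_ : Field F)
      (_ : Fintype F) (_ : CharP F 2), HK F S Z k ∧ Nonempty (P ≃* S) := by
  classical
  simp only [pow_two] at htwo hY
  obtain ⟨x, y, hxy, hx1, hx2, hy1, hy2⟩ := htwo
  obtain ⟨Y, hYs, htr⟩ := hY
  have : Nontrivial P := ⟨⟨x, y, hxy⟩⟩
  obtain ⟨z, hz, hz2⟩ := H08.even_card_iff.1 (even_iff_two_dvd.2 (pg_dvd Nat.prime_two
    (h2.to_subgroup (center P)) h2.bot_lt_center.ne'))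
  have hz1 := H08.ne_one_of_orderOf hz2
  replace hz2 := H08.mul_self_of_orderOf hz2
  have hcen : ∀ w : P, w * w = 1 → w ∈ center P := fun w hw => by
    by_cases hw1 : w = 1
    · rw [hw1]; exact one_mem _
    obtain ⟨κ, -, rfl⟩ := htr z w hz1 hz2 hw1 hw
    rw [mem_center_iff] at hz ⊢
    intro g
    obtain ⟨g, rfl⟩ := κ.surjective g
    rw [← map_mul, ← map_mul, hz]
  let Z₀ : Subgroup P :=
    { carrier := {w | w * w = 1}
      one_mem' := one_mul 1
      mul_mem' := fun {v w} hv hw => by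
        show v * w * (v * w) = 1
        rw [mul_assoc, ← mul_assoc w, ← mem_center_iff.1 (hcen w hw) v, mul_assoc, hw, mul_one, hv]
      inv_mem' := fun {v} hv => by
        show v⁻¹ * v⁻¹ = 1
        rw [← mul_inv_rev, hv, inv_one] }
  have hm : ∀ (κ : MulAut P) {w : P}, w ∈ Z₀ → κ w ∈ Z₀ := fun κ w hw => by
    show _ * _ = 1
    rw [← map_mul, show w * w = 1 from hw, map_one]
  have hbig : 2 < # Z₀ := by
    have := Fintype.ofFinite Z₀
    rw [Nat.card_eq_fintype_card, Fintype.two_lt_card_iff]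
    exact ⟨1, ⟨x, hx2⟩, ⟨y, hy2⟩, fun e => hx1 (congrArg Subtype.val e).symm,
      fun e => hy1 (congrArg Subtype.val e).symm, fun e => hxy (congrArg Subtype.val e)⟩
  obtain ⟨K, hKY, hK1, hK2, hK3⟩ := hall_trans hYs (I := (Z₀ : Set P) \ {1}) (z := z) (by
    ext w
    constructor
    · rintro ⟨κ, rfl⟩
      exact ⟨hm κ hz2, fun e => hz1 ((map_eq_one_iff _ κ.1.injective).1 e)⟩
    · rintro ⟨hw, hw1⟩
      obtain ⟨κ, hκ, e⟩ := htr z w hz1 hz2 hw1 hw
      exact ⟨⟨κ, hκ⟩, e⟩)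
  rw [Set.ncard_diff_singleton_of_mem (one_mem Z₀), ← Nat.card_coe_set_eq,
    SetLike.coe_sort_coe] at hK1 hK3
  have hKs : Group.IsSolvable K := sol_of_le hYs hKY
  have htr' : ∀ v ∈ Z₀, v ≠ 1 → ∀ w ∈ Z₀, w ≠ 1 → ∃ κ : K, (κ : MulAut P) v = w := by
    intro v hv hv1 w hw hw1
    obtain ⟨κ, rfl⟩ := hK2.ge (⟨hv, hv1⟩ : v ∈ (Z₀ : Set P) \ {1})
    obtain ⟨κ', rfl⟩ := hK2.ge (⟨hw, hw1⟩ : w ∈ (Z₀ : Set P) \ {1})
    exact ⟨κ' * κ⁻¹, by simp [MulAut.smul_def, Subgroup.smul_def]⟩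
  let i : P →* P ⋊[K.subtype] K := SemidirectProduct.inl
  let j : K →* P ⋊[K.subtype] K := SemidirectProduct.inr
  have hi : Function.Injective i := SemidirectProduct.inl_injective
  have hj : Function.Injective j := SemidirectProduct.inr_injective
  have hc : ∀ (κ : K) (w : P), j κ * i w * (j κ)⁻¹ = i ((κ : MulAut P) w) :=
    fun κ w => by rw [← map_inv]; exact (SemidirectProduct.inl_aut κ w).symm
  have hfin' : Finite (P ⋊[K.subtype] K) := Finite.of_equiv _ SemidirectProduct.equivProd.symm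
  have hcard : # (Z₀.map i) = # Z₀ := card_map_of_injective hi
  have hn : ∀ κ, j κ ∈ N_(i.range) := fun κ => mem_norm_of_conj (by
    rintro _ ⟨w, rfl⟩
    exact ⟨_, (hc κ w).symm⟩)
  have hmem : ∀ w, w ∈ Z₀.map i ↔ w ∈ i.range ∧ w * w = 1 := fun w => by
    constructor
    · rintro ⟨w, hw, rfl⟩
      exact ⟨⟨w, rfl⟩, by rw [← map_mul, hw, map_one]⟩
    · rintro ⟨⟨w, rfl⟩, hw⟩
      exact ⟨w, hi (by rw [map_mul, hw, map_one]), rfl⟩
  have hT : HT i.range (Z₀.map i) j.range := by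
    refine ⟨h2.of_equiv (MonoidHom.ofInjective hi), ?_, hmem, ?_, hcard ▸ hbig⟩
    · rintro _ ⟨κ, rfl⟩; exact hn κ
    · rintro _ ⟨v, hv, rfl⟩ hv1 _ ⟨w, hw, rfl⟩ hw1
      obtain ⟨κ, e⟩ := htr' v hv (fun e => hv1 (by rw [e, map_one])) w hw
        (fun e => hw1 (by rw [e, map_one]))
      exact ⟨_, ⟨κ, rfl⟩, by rw [hc, e]⟩
  have hfa := hT.faithful (solvable_of_surjective j.rangeRestrict_surjective) (by
      rw [hcard, ← Nat.card_congr (MonoidHom.ofInjective hj).toEquiv]; exact hK1)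
    ((eq_bot_iff_forall _).2 (by
      rintro _ ⟨⟨κ, rfl⟩, hκ⟩
      have : κ = 1 := Subtype.ext (MulEquiv.ext fun w => hi (by
        rw [← hc, ← hκ _ ⟨w, rfl⟩]; simp))
      rw [this, map_one]))
  have hfa' : ∀ κ : K, (∀ w ∈ Z₀, (κ : MulAut P) w = w) → κ = 1 := fun κ hκ => hj (by
    rw [map_one]
    refine (eq_bot_iff_forall _).1 hfa _ ⟨⟨κ, rfl⟩, ?_⟩
    rintro _ ⟨w, hw, rfl⟩
    rw [mul_inv_eq_iff_eq_mul.1 (hc κ w), hκ w hw])
  let _ : CommGroup Z₀ :=
    { (inferInstance : Group Z₀) with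
      mul_comm := fun v w => Subtype.ext (mem_center_iff.1 (hcen w w.2) v) }
  let _ : Module (ZMod 2) (Additive Z₀) := AddCommGroup.zmodModule (n := 2) fun v => by
    rw [two_nsmul]; exact Subtype.ext v.toMul.2
  have : Nontrivial (Additive Z₀) := ⟨⟨Additive.ofMul ⟨x, hx2⟩, Additive.ofMul ⟨y, hy2⟩,
    fun e => hxy (congrArg Subtype.val e)⟩⟩
  let a : K → Additive Z₀ →+ Additive Z₀ := fun κ => AddMonoidHom.mk'
    (fun v => Additive.ofMul ⟨(κ : MulAut P) v.toMul, hm _ v.toMul.2⟩)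
    fun v w => Subtype.ext (map_mul (κ : MulAut P) _ _)
  let ρ : K →* (Additive Z₀ ≃ₗ[ZMod 2] Additive Z₀) := MonoidHom.mk'
    (fun κ => LinearEquiv.ofLinear ((a κ).toZModLinearMap 2) ((a κ⁻¹).toZModLinearMap 2)
      (LinearMap.ext fun v => Subtype.ext ((κ : MulAut P).apply_symm_apply _))
      (LinearMap.ext fun v => Subtype.ext ((κ : MulAut P).symm_apply_apply _)))
    fun κ κ' => LinearEquiv.ext fun v => rfl
  have hρ : ∀ κ v, ((ρ κ v).toMul : P) = (κ : MulAut P) v.toMul := fun κ v => rfl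
  have hρ1 : ∀ κ, (∀ v, ρ κ v = v) → κ = 1 := fun κ hκ => hfa' κ fun w hw =>
    congrArg (fun v : Additive Z₀ => (v.toMul : P)) (hκ (Additive.ofMul ⟨w, hw⟩))
  obtain ⟨m, hm0, hq⟩ := hT.two_pow
  rcases Cfsg.Agent.S3360.result 2 hKs ρ
    ((injective_iff_map_eq_one ρ).2 fun κ hκ => hρ1 κ fun v => by rw [hκ]; rfl)
    (fun v w hv hw => by
      obtain ⟨κ, e⟩ := htr' _ v.toMul.2 (fun e => hv (Subtype.ext e)) _ w.toMul.2
        fun e => hw (Subtype.ext e)
      exact ⟨κ, Subtype.ext e⟩) with ⟨F, _, _, e, he⟩ | hexc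
  swap
  · exfalso
    have h3 : 2 ∣ # (Additive Z₀) := by
      rw [show # (Additive Z₀) = # Z₀ from rfl, ← hcard, hq]; exact dvd_pow_self 2 hm0.ne'
    simp only [Set.mem_insert_iff, Set.mem_singleton_iff] at hexc
    omega
  have hF : Fintype.card F = # Z₀ := by
    rw [← Nat.card_eq_fintype_card, ← Nat.card_congr e.toEquiv]; rfl
  have : CharP F 2 := CharTwo.of_one_ne_zero_of_two_eq_zero one_ne_zero (by
    have : e.symm 1 + e.symm 1 = 0 := Subtype.ext (e.symm 1).toMul.2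
    rw [← map_add, AddEquiv.map_eq_zero_iff] at this
    rw [← this]; norm_num)
  obtain ⟨k, l, hl, hk1, hk2⟩ := exists_gen (fun κ v => ρ κ v) (fun g g' v => by rw [map_mul]; rfl)
    hρ1 (fun g v h => by simpa using h) e he (hF ▸ hK3)
  let p : P ⋊[K.subtype] K → F := fun g =>
    if h : g.left ∈ Z₀ then e (Additive.ofMul ⟨g.left, h⟩) else 0
  have hp : ∀ w (hw : w ∈ Z₀), p (i w) = e (Additive.ofMul ⟨w, hw⟩) := fun w hw =>
    dif_pos hw
  refine ⟨P ⋊[K.subtype] K, inferInstance, hfin', i.range, Z₀.map i, j k, F, inferInstance,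
    inferInstance, inferInstance, ⟨hT.pg, hn k, hmem, ⟨l, p, ⟨?_, ?_, ?_, ?_, hl.1, bot_le⟩, hl⟩,
      hT.Z_ne, hF ▸ hbig, by rw [← map_pow, hk1, map_one]⟩, ⟨MonoidHom.ofInjective hi⟩⟩
  · rintro _ ⟨v, hv, rfl⟩ _ ⟨w, hw, rfl⟩
    rw [← map_mul, hp _ (mul_mem hv hw), hp v hv, hp w hw, ← map_add]; rfl
  · rintro _ ⟨v, hv, rfl⟩
    rw [hp v hv, e.map_eq_zero_iff, mem_bot, map_eq_one_iff i hi]
    exact ⟨fun h => congrArg Subtype.val h, fun h => Subtype.ext h⟩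
  · rintro _ ⟨v, hv, rfl⟩
    rw [hc, hp _ (hm _ hv), hp v hv, ← hk2]; rfl
  · exact mem_norm_of_conj (by
      rintro _ ⟨w, hw, rfl⟩
      exact ⟨_, hm _ hw, (hc k w).symm⟩)

theorem main {P : Type u} [Group P] [Finite P] (h2 : IsPGroup 2 P) (hna : ¬ IsMulCommutative P)
    (htwo : ∃ x y : P, x ≠ y ∧ x ≠ 1 ∧ x ^ 2 = 1 ∧ y ≠ 1 ∧ y ^ 2 = 1)
    (hY : ∃ Y : Subgroup (MulAut P), Group.IsSolvable Y ∧
      ∀ x y : P, x ≠ 1 → x ^ 2 = 1 → y ≠ 1 → y ^ 2 = 1 → ∃ a ∈ Y, a x = y) :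
    commutator P = frattini P ∧ frattini P = center P ∧ ∀ x : P, x ∈ center P ↔ x ^ 2 = 1 := by
  obtain ⟨G, _, _, S, Z, k, F, _, _, _, h, ⟨e⟩⟩ := exists_HK h2 htwo hY
  have hna' : ¬ IsMulCommutative S := fun hS => hna ⟨⟨fun a b => e.injective (by
    rw [map_mul, map_mul]; exact hS.1.1 _ _)⟩⟩
  let f : P →* G := S.subtype.comp e.toMonoidHom
  have hf : Function.Injective f := S.subtype_injective.comp e.injective
  have hS : (⊤ : Subgroup P).map f = S := by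
    rw [← map_map, map_top_of_surjective _ e.surjective, ← MonoidHom.range_eq_map, range_subtype]
  have hZ : ∀ x : P, f x ∈ Z ↔ x ^ 2 = 1 := fun x => by
    rw [h.mem, ← map_mul, map_eq_one_iff f hf, pow_two]
    exact ⟨fun h => h.2, fun h => ⟨(e x).2, h⟩⟩
  have h3 : ∀ x : P, x ∈ center P ↔ f x ∈ Z := fun x => by
    rw [← h.center_eq hna', mem_center_iff]
    refine ⟨fun hx => ⟨(e x).2, fun g hg => ?_⟩, fun hx g => hf ?_⟩
    · obtain ⟨g, -, rfl⟩ := hS.ge hg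
      rw [← map_mul, hx, map_mul]
    · rw [map_mul, map_mul]; exact hx.2 _ (e g).2
  have hsq : ∀ x : P, x * x ∈ center P := fun x => by
    rw [h3, map_mul]; exact h.sq_mem_Z hna' _ (e x).2
  have h4 : center P ≤ commutator P := fun x hx => by
    have := h.Z_le (Y := ⁅S, S⁆) (comm_le_left (le_norm S)) (kn_comm h.kn h.kn)
      (fun e => hna' (abelian_iff_der.2 e)) ((h3 x).1 hx)
    rw [← hS, ← map_commutator] at this
    exact (mem_map_iff_mem hf).1 this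
  have h5 : frattini P ≤ center P := (H04.frattini_le_iff' h2).2
    ⟨fun x y => comm_mem_of_sq (A := ⊤) (fun x _ => hsq x) trivial trivial,
      fun x => by rw [pow_two]; exact hsq x⟩
  have h6 : commutator P ≤ frattini P := H04.commutator_le_frattini h2
  exact ⟨le_antisymm h6 (h5.trans h4), le_antisymm h5 (h4.trans h6), fun x => (h3 x).trans (hZ x)⟩

end H21.SH
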