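import Cfsg.Agent.H21.WC2
import Cfsg.Agent.L.Jt0

/-! Part R1 of S5563–S5565: odd subgroups centralizing an element of order 3 and a non-central element of `Q`. -/

set_option autoImplicit false
set_option linter.unusedSectionVars false
open Cfsg BG Subgroup H01.XT H01.XF Cfsg.Agent.H06.J H21.JU1 H21.WC2

namespace H21.TR1
universe u
variable {V : Type u} [AddCommGroup V] [Module (ZMod 2) V] [Finite V] {Γ : Type u} [Group Γ] [Finite Γ]
  {T : Γ → V →+ V} {d : Γ} {M K Y : Subgroup Γ} {β : V →+ V →+ ZMod 2} {q : V → ZMod 2} {B : AddSubgroup V}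

theorem n9 (g : Gj T d M β q) (dc : d ∈ ⁅M, M⁆) {v : V} (v0 : v ≠ 0) (P : Subgroup Γ) (hP : ∀ g ∈ P, T g v = v) :
    ¬ 9 ∣ Nat.card P := by
  intro h
  have w3 : ∀ v, T d (T d (T d v)) = v := fun v => by rw [← g.mul d d v, ← g.mul, g.d3, g.one]
  have d3 : d ^ 3 = 1 := by rw [pow_three, g.d3]
  letI : MulAction Γ V := { smul := fun k v => T k v, one_smul := g.one, mul_smul := g.mul }
  let J : Subgroup Γ :=
    { carrier := {k | k ∈ M ∧ ∃ i : ℕ, T k v = T (d ^ i) v}
      one_mem' := ⟨one_mem _, 0, by rw [pow_zero]⟩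
      mul_mem' := by
        rintro a b ⟨ha, i, hi⟩ ⟨hb, j, hj⟩
        exact ⟨mul_mem ha hb, j + i, by rw [g.mul, hj, cp g ha, hi, ← g.mul, pow_add]⟩
      inv_mem' := by
        rintro a ⟨ha, i, hi⟩
        refine ⟨inv_mem ha, 2 * i, ?_⟩
        have : T a (T (d ^ (2 * i)) v) = v := by
          rw [cp g ha, hi, ← g.mul, ← pow_add, show 2 * i + i = 3 * i by ring, pow_mul, d3, one_pow, g.one]
        conv_lhs => rw [← this, li g] }
  have JM : J ≤ M := fun k hk => hk.1
  have dJ : d ∈ J := ⟨g.dM, 1, by rw [pow_one]⟩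
  have c3 : 3 ∣ (MulAction.stabilizer J v).index := by
    rw [MulAction.index_stabilizer, ← Nat.card_coe_set_eq]
    have : Fact (Nat.Prime 3) := ⟨by norm_num⟩
    have m := md 3 (T d) w3 (MulAction.orbit J v) (by
      rintro _ ⟨k, rfl⟩
      exact ⟨⟨d, dJ⟩ * k, g.mul d k v⟩)
    rw [show {w | w ∈ MulAction.orbit J v ∧ T d w = w} = ∅ from Set.eq_empty_of_forall_notMem (by
      rintro _ ⟨⟨k, rfl⟩, e⟩
      have e' : T k v = 0 := fw g e
      exact v0 (by rw [← li g k v, e', map_zero]))] at m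
    exact (Nat.modEq_zero_iff_dvd).1 (by simpa using m)
  have c9 : 9 ∣ Nat.card (MulAction.stabilizer J v) := by
    have l : P ⊓ M ≤ J := fun k hk => ⟨hk.2, 0, by rw [pow_zero, g.one, hP k hk.1]⟩
    have a : 9 ∣ Nat.card (P ⊓ M : Subgroup Γ) := by
      have e := (M.subgroupOf P).index_mul_card
      have : M.Normal := normal_of_index_eq_two g.Mi
      have i2 : (M.subgroupOf P).index ∣ 2 := g.Mi ▸ relIndex_dvd_index_of_normal M P
      rw [← inf_subgroupOf_right, Nat.card_congr (subgroupOfEquivOfLe inf_le_right).toEquiv, inf_subgroupOf_right, inf_comm] at e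
      rw [← e] at h
      exact (Nat.Coprime.coprime_dvd_right i2 (by norm_num : Nat.Coprime 9 2)).dvd_of_dvd_mul_left h
    rw [← Nat.card_congr (subgroupOfEquivOfLe l).toEquiv] at a
    exact a.trans (card_dvd_of_le fun k hk => hP k hk.1)
  have c27 : 27 ∣ Nat.card J := by
    rw [← (MulAction.stabilizer J v).index_mul_card]
    exact Nat.mul_dvd_mul c3 c9
  have cM : Nat.card M = 1330560 := by
    have := M.index_mul_card
    rw [g.Mi, g.cΓ] at this
    omega
  have n3 : ¬ 3 ∣ (J.subgroupOf M).index := fun o => by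
    have e := (J.subgroupOf M).index_mul_card
    rw [Nat.card_congr (subgroupOfEquivOfLe JM).toEquiv, cM] at e
    exact absurd (e ▸ Nat.mul_dvd_mul o c27) (by norm_num)
  have t := trf (J.subgroupOf M) ⟨d, g.dM⟩ (fun k => Subtype.ext (g.Md k k.2)) (by
    rw [← map_subtype_commutator] at dc
    obtain ⟨x, hx, rfl⟩ := dc
    exact hx) (Subtype.ext d3) n3
  have t' : d ∈ ⁅J, J⁆ := by
    have := mem_map_of_mem M.subtype t
    rwa [map_commutator, subgroupOf_map_subtype, inf_eq_left.2 JM] at this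
  exact v0 (noline g JM t' fun k hk => hk.2)

theorem r1 : L.Jt.R1Stmt.{u} := by
  intro G _ _ z Q V _ _ _ Γ _ _ f π ν T d M β q s K Y B A δ c m1 ρ _ kr x xz x3 r rQ r1 rz rx R l o
  have g := s.gm
  have d3 : d ^ 3 = 1 := by rw [pow_three, g.d3]
  have v0 : ν r ≠ 0 := fun e => ((s.md.ker r rQ).1 e).elim r1 rz
  have cx : ∀ y ∈ C_[x], y * x = x * y := fun y => mem_centralizer_singleton_iff.1
  have l' : R ⊔ zpowers x ≤ C_[z] ⊓ C_[x] ⊓ C_[r] := sup_le l (zpowers_le.2 ⟨⟨xz, mem_centralizer_singleton_iff.2 rfl⟩,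
    mem_centralizer_singleton_iff.2 (cx r rx).symm⟩)
  have o' : Odd (Nat.card ↥(R ⊔ zpowers x)) := by
    have a := card_range_dvd (R.subtype.noncommCoprod (zpowers x).subtype fun a b => by
      obtain ⟨_, n, rfl⟩ := b
      exact (show Commute (a : G) x from cx a (l a.2).1.2).zpow_right n)
    rw [MonoidHom.noncommCoprod_range, range_subtype, range_subtype, Nat.card_prod, Nat.card_zpowers, x3] at a
    exact Odd.of_dvd_nat (o.mul (by decide)) a
  have xR : x ∈ R ⊔ zpowers x := (le_sup_right : zpowers x ≤ _) (mem_zpowers x)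
  suffices h : Nat.card ↥(R ⊔ zpowers x) ≤ 3 from
    le_sup_left.trans (Subgroup.eq_of_le_of_card_ge le_sup_right (by rwa [Nat.card_zpowers, x3])).ge
  generalize R ⊔ zpowers x = R' at l' o' xR
  let F : R' →* Γ := f.comp (inclusion (l'.trans (inf_le_left.trans inf_le_left)))
  have hF : ∀ y : R', F y = π y := fun y => s.pf _
  have Fv : ∀ y : R', T (F y) (ν r) = ν r := fun y => by
    rw [hF, s.act _ (l' y.2).1.1 r rQ, mem_centralizer_singleton_iff.1 (l' y.2).2, mul_inv_cancel_right]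
  have FM : ∀ y : R', F y ∈ M := fun y => by
    obtain ⟨k, hk⟩ := o'
    have := pow_mem (sq_mem_of_index_two g.Mi (F y)) (k + 1)
    rwa [← pow_mul, show 2 * (k + 1) = 2 * k + 1 + 1 by ring, pow_succ, ← hk, ← map_pow, pow_card_eq_one', map_one, one_mul] at this
  have Fi : ∀ y : R', F y = 1 → y = 1 := fun y e => by
    have yQ := (s.ker _ (l' y.2).1.1).1 (hF y ▸ e)
    have a : orderOf (y : G) ∣ 2 ^ 13 := by
      have := orderOf_dvd_natCard (⟨y, yQ⟩ : Q)
      rwa [← orderOf_coe, s.card] at this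
    have b : orderOf (y : G) ∣ Nat.card R' := by rw [orderOf_coe]; exact orderOf_dvd_natCard y
    exact Subtype.ext (orderOf_eq_one_iff.1 (Nat.eq_one_of_dvd_coprimes ((Nat.coprime_two_left.2 o').pow_left 13) a b))
  let ψ : R' →* Spor.M22 := ρ.comp (F.codRestrict M FM)
  have ψi : Function.Injective ψ := (injective_iff_map_eq_one ψ).2 fun y e => Fi y (by
    have a : F y ∈ zpowers d := (kr _).1 e
    obtain ⟨n, hn⟩ := mem_powers_iff_mem_zpowers.2 a
    have hn : d ^ (n % 3) = F y := (pow_eq_pow_mod n d3).symm.trans hn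
    have b := Fv y
    have : n % 3 = 0 ∨ n % 3 = 1 ∨ n % 3 = 2 := by omega
    rcases this with k | k | k <;> rw [k] at hn
    · rw [← hn, pow_zero]
    · rw [← hn, pow_one] at b
      exact absurd (fw g b) v0
    · rw [← hn] at b
      have e := congrArg (T d) b
      rw [← g.mul, ← pow_succ', d3, g.one] at e
      exact absurd (fw g e.symm) v0)
  have c1 : Nat.card ψ.range = Nat.card R' := (Nat.card_congr (MonoidHom.ofInjective ψi).toEquiv).symm
  have c2 : Nat.card F.range = Nat.card R' :=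
    (Nat.card_congr (MonoidHom.ofInjective ((injective_iff_map_eq_one F).2 Fi)).toEquiv).symm
  have a := m1 (ψ ⟨x, xR⟩) (by rw [orderOf_injective ψ ψi, ← orderOf_coe]; exact x3) ψ.range (by
    rintro _ ⟨y, rfl⟩
    refine mem_centralizer_singleton_iff.2 ?_
    rw [← map_mul, ← map_mul]
    exact congrArg ψ (Subtype.ext (cx y (l' y.2).1.2))) (c1 ▸ o')
  have b := n9 g (commutator_mono c.hk.KM c.hk.KM c.dK) v0 F.range (by rintro _ ⟨y, rfl⟩; exact Fv y)
  rw [c1] at a
  rw [c2] at b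
  obtain ⟨k, hk, e⟩ := (Nat.dvd_prime_pow Nat.prime_three (m := 2)).1 a
  rw [e] at b ⊢
  interval_cases k <;> simp_all

end H21.TR1
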