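import Cfsg.Agent.H21.WC2
import Cfsg.Agent.H21.LpS
import Cfsg.Agent.H23.Y0

/-! Part M of S5569: every singular vector is conjugate into `B`. -/

set_option autoImplicit false
set_option linter.unusedSectionVars false
open Subgroup H01.XT H01.XF Cfsg.Agent.H06.J H21.JU1 H21.WC2

namespace H21.YM
universe u
variable {V : Type u} [AddCommGroup V] [Module (ZMod 2) V] [Finite V] {Γ : Type u} [Group Γ] [Finite Γ]
  {T : Γ → V →+ V} {d : Γ} {M K Y : Subgroup Γ} {β : V →+ V →+ ZMod 2} {q : V → ZMod 2} {B : AddSubgroup V}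

theorem n711 (g : Gj T d M β q) {v : V} (qv : q v = 0) (v0 : v ≠ 0) (P : Subgroup Γ) (hP : ∀ g ∈ P, T g v = v) :
    ¬ 7 ∣ Nat.card P ∧ ¬ 11 ∣ Nat.card P := by
  have w3 : ∀ v, T d (T d (T d v)) = v := fun v => by rw [← g.mul d d v, ← g.mul, g.d3, g.one]
  have el : ∀ r k : ℕ, r.Prime → 2 * k = r + 1 → r ∣ Nat.card P → ∃ f ∈ M, f ≠ 1 ∧ f ^ r = 1 ∧ T f v = v := fun r k hr e h => by
    have : Fact r.Prime := ⟨hr⟩
    obtain ⟨f, hf⟩ := exists_prime_orderOf_dvd_card' r h
    have o : orderOf (f : Γ) = r := (orderOf_coe f).trans hf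
    have o' : (f : Γ) ^ r = 1 := by rw [← o, pow_orderOf_eq_one]
    refine ⟨f, ?_, fun e => hr.one_lt.ne (by rw [← o, e, orderOf_one]), o', hP f f.2⟩
    have := pow_mem (sq_mem_of_index_two g.Mi (f : Γ)) k
    rwa [← pow_mul, e, pow_succ, o', one_mul] at this
  have cw : ∀ f ∈ M, ∀ v, T d (T f v) = T f (T d v) := fun f hf v => by rw [← g.mul, ← g.mul, g.Md f hf]
  refine ⟨fun h => ?_, fun h => ?_⟩
  · obtain ⟨f, fM, f1, fr, fv⟩ := el 7 4 (by norm_num) rfl h
    obtain ⟨u, hu⟩ : ∃ u, T f u ≠ u := by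
      by_contra! o
      exact f1 (g.fai f o)
    exact v0 ((g.toQF.fpf (ω := T d) (Y := T f) w3 (fun v => (it g f 7 v).trans (by rw [fr, g.one])) (cw f fM) (g.qT d) (g.qT f)
      (g.hf u) hu v).2 fv)
  · obtain ⟨f, fM, f1, fr, fv⟩ := el 11 6 (by norm_num) rfl h
    have : Fact (Nat.Prime 11) := ⟨by norm_num⟩
    have hf : ∀ v, (T f)^[11] v = v := fun v => (it g f 11 v).trans (by rw [fr, g.one])
    let U : AddSubgroup V :=
      { carrier := {v | T f v = v}
        zero_mem' := map_zero _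
        add_mem' := fun {a b} (ha : T f a = a) (hb : T f b = b) => show T f (a + b) = a + b by rw [map_add, ha, hb]
        neg_mem' := fun {a} (ha : T f a = a) => show T f (-a) = -a by rw [map_neg, ha] }
    obtain ⟨k, hk, c1, c2⟩ := cpp g.toQF U
    have m1 := md 11 (T f) hf Set.univ fun _ _ => trivial
    rw [Nat.card_congr (Equiv.Set.univ V), g.card, show {v | v ∈ Set.univ ∧ T f v = v} = (U : Set V) from
      Set.ext fun _ => ⟨fun a => a.2, fun a => ⟨trivial, a⟩⟩] at m1
    change 4096 ≡ Nat.card U [MOD 11] at m1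
    have k2 : k = 2 ∨ k = 12 := by
      rw [c1] at m1
      interval_cases k <;> simp_all [Nat.ModEq]
    rcases k2 with rfl | rfl
    · have m2 := cnt 3 (T d) w3 {u | u ∈ U ∧ q u = 0} ⟨zero_mem _, g.toQF.q0⟩ (map_zero _)
        (fun v hv => ⟨show T f (T d v) = T d v by rw [← cw f fM, show T f v = v from hv.1], (g.qT d v).trans hv.2⟩) fun v _ => fw g
      rw [Nat.card_coe_set_eq] at m2
      have sb : {u | u ∈ U ∧ q u = 0} ⊆ (U : Set V) := fun u a => a.1
      have cU : (U : Set V).ncard = 4 := (Nat.card_coe_set_eq _).symm.trans c1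
      have g2 : 1 < {u | u ∈ U ∧ q u = 0}.ncard := (Set.one_lt_ncard).2 ⟨v, ⟨fv, qv⟩, 0, ⟨zero_mem _, g.toQF.q0⟩, v0⟩
      have l4 := Set.ncard_le_ncard sb
      have e := Set.eq_of_subset_of_ncard_le sb (by unfold Nat.ModEq at m2; omega)
      have UB : ∀ u ∈ U, q u = 0 := fun u hu => (e.ge hu).2
      have m3 := md 11 (T f) hf (pp β U) fun w hw u hu => by
        rw [← show T f u = u from hu, g.toQF.inv (g.qT f)]; exact hw u hu
      rw [show {v | v ∈ (pp β U : Set V) ∧ T f v = v} = (U : Set V) from Set.ext fun w => ⟨fun a => a.2, fun a => ⟨fun u hu => by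
        have := g.pol u w
        rw [UB _ (add_mem hu a), UB u hu, UB w a] at this
        simpa using this.symm, a⟩⟩] at m3
      change Nat.card (pp β U) ≡ Nat.card U [MOD 11] at m3
      rw [c1, c2] at m3
      exact absurd m3 (by decide)
    · have := AddSubgroup.eq_top_of_card_eq U (by rw [c1, g.card]; norm_num)
      exact f1 (g.fai f fun v => this.ge (AddSubgroup.mem_top v))

theorem m : Cfsg.Agent.H23.Y.MStmt.{u} := by
  intro V _ _ _ Γ _ _ T d M K Y β q B g x _ _ p i ⟨a, aB, b, bB, a0, b0, ab⟩ v qv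
  by_contra! no
  have v0 : v ≠ 0 := fun e => no 1 (by rw [e, map_zero]; exact zero_mem _)
  have w3 : ∀ v, T d (T d (T d v)) = v := fun v => by rw [← g.mul d d v, ← g.mul, g.d3, g.one]
  letI : MulAction Γ V := { smul := fun k v => T k v, one_smul := g.one, mul_smul := g.mul }
  have nz : ∀ k u, u ≠ 0 → T k u ≠ 0 := fun k u n e => n (by rw [← li g k u, e, map_zero])
  have os : ∀ u : V, (MulAction.orbit Γ u).ncard * Nat.card (MulAction.stabilizer Γ u) = 2661120 := fun u => by
    rw [← MulAction.index_stabilizer, index_mul_card, g.cΓ]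
  have dv : ∀ u, q u = 0 → u ≠ 0 → 231 ∣ (MulAction.orbit Γ u).ncard := fun u qu u0 => by
    obtain ⟨n7, n11⟩ := n711 g qu u0 (MulAction.stabilizer Γ u) fun _ => id
    have c7 := ((Nat.Prime.dvd_mul (by norm_num : Nat.Prime 7)).1 (os u ▸ (by norm_num : 7 ∣ 2661120))).resolve_right n7
    have c11 := ((Nat.Prime.dvd_mul (by norm_num : Nat.Prime 11)).1 (os u ▸ (by norm_num : 11 ∣ 2661120))).resolve_right n11
    have c3 : 3 ∣ (MulAction.orbit Γ u).ncard := by
      rw [← Nat.card_coe_set_eq]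
      have : Fact (Nat.Prime 3) := ⟨by norm_num⟩
      have m := md 3 (T d) w3 (MulAction.orbit Γ u) (by
        rintro _ ⟨k, rfl⟩
        exact ⟨d * k, g.mul d k u⟩)
      rw [show {w | w ∈ MulAction.orbit Γ u ∧ T d w = w} = ∅ from Set.eq_empty_of_forall_notMem (by
        rintro _ ⟨⟨k, rfl⟩, e⟩
        exact nz k u u0 (fw g e))] at m
      exact (Nat.modEq_zero_iff_dvd).1 (by simpa using m)
    omega
  have c8 : 8 ∣ (MulAction.orbit Γ v).ncard := by
    by_contra n8
    have h64 : 2 ^ 6 ∣ Nat.card (MulAction.stabilizer Γ v) := by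
      have e := os v
      obtain ⟨j, o, ho, eo⟩ := Nat.exists_eq_two_pow_mul_odd (n := (MulAction.orbit Γ v).ncard) (fun z => by simp [z] at e)
      have j2 : j ≤ 2 := not_lt.1 fun l => n8 (eo ▸ (pow_dvd_pow 2 l).mul_right o)
      have : 2 ^ j * 2 ^ 6 ∣ 2 ^ j * (o * Nat.card (MulAction.stabilizer Γ v)) := by
        rw [← mul_assoc, ← eo, e, ← pow_add]
        exact (pow_dvd_pow 2 (by omega : j + 6 ≤ 8)).trans (by norm_num)
      exact ((Nat.coprime_two_left.2 ho).pow_left 6).dvd_of_dvd_mul_left (Nat.dvd_of_mul_dvd_mul_left (by positivity) this)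
    obtain ⟨P0, c0⟩ := Sylow.exists_subgroup_card_pow_prime 2 h64
    obtain ⟨S, YS⟩ := (IsPGroup.of_card (p := 2) (n := 4) x.cY).exists_le_sylow
    have cS : Nat.card S = 2 ^ 8 := by rw [S.card_eq_multiplicity, g.cΓ]; decide +kernel
    obtain ⟨k, hk⟩ := H21.LpS.conj_le 2 8 Nat.prime_two S cS (by rw [g.cΓ]; norm_num) (P0.map (MulAction.stabilizer Γ v).subtype)
      ((IsPGroup.of_card c0).map _)
    have cP : Nat.card ((P0.map (MulAction.stabilizer Γ v).subtype).map (MulAut.conj k).toMonoidHom) = 64 :=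
      (card_map_of_injective (MulAut.conj k).injective).trans ((card_map_of_injective (subtype_injective _)).trans c0)
    have fP : ∀ y ∈ (P0.map (MulAction.stabilizer Γ v).subtype).map (MulAut.conj k).toMonoidHom, T y (T k v) = T k v := by
      rintro _ ⟨_, ⟨y, -, rfl⟩, rfl⟩
      show T (k * y * k⁻¹) (T k v) = T k v
      rw [g.mul, g.mul, li g, show T y v = v from y.2]
    generalize (P0.map (MulAction.stabilizer Γ v).subtype).map (MulAut.conj k).toMonoidHom = P at hk cP fP
    have r1 : Y.relIndex S = 16 := by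
      have := (Y.subgroupOf S).index_mul_card
      rw [Nat.card_congr (subgroupOfEquivOfLe YS).toEquiv, x.cY, cS] at this
      unfold relIndex
      omega
    have r2 := relIndex_le_of_le_right (H := Y) hk (by omega)
    have r3 := (Y.subgroupOf P).index_mul_card
    rw [cP] at r3
    have r4 : 2 < Nat.card (Y.subgroupOf P) := by
      by_contra! o
      have := Nat.mul_le_mul r2 o
      unfold relIndex at this r1
      omega
    have r5 : 1 < (((Y.subgroupOf P : Subgroup P) : Set P) \ {1}).ncard := by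
      have := Set.ncard_diff_singleton_add_one (s := ((Y.subgroupOf P : Subgroup P) : Set P)) (a := 1) (one_mem _)
      have e : ((Y.subgroupOf P : Subgroup P) : Set P).ncard = Nat.card (Y.subgroupOf P) := (Nat.card_coe_set_eq _).symm
      omega
    obtain ⟨y, ⟨y1, y2⟩, y', ⟨y3, y4⟩, ne⟩ := (Set.one_lt_ncard).1 r5
    exact no k (i.two y y1 y' y3 (fun e => y2 (Subtype.ext e)) (fun e => y4 (Subtype.ext e)) (fun e => ne (Subtype.ext e)) _
      (fP y y.2) (fP y' y'.2))
  have sb : ∀ u, q u = 0 → u ≠ 0 → MulAction.orbit Γ u ⊆ {v | v ≠ 0 ∧ q v = 0} := by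
    rintro u qu u0 _ ⟨k, rfl⟩
    exact ⟨nz k u u0, (g.qT k u).trans qu⟩
  have dj : ∀ u w : V, (∀ k, T k u ≠ w) → Disjoint (MulAction.orbit Γ u) (MulAction.orbit Γ w) := fun u w h =>
    Set.disjoint_left.2 (by
      rintro _ ⟨k, rfl⟩ ⟨l, e⟩
      have e' : T l w = T k u := e
      exact h (l⁻¹ * k) (by rw [g.mul, ← e', li g]))
  have tot := Set.ncard_le_ncard (Set.union_subset (sb v qv v0) (Set.union_subset (sb a (p.qB a aB) a0) (sb b (p.qB b bB) b0)))
  rw [g.toQF.n0 w3 (g.qT d) g.hf, Set.ncard_union_eq (Set.disjoint_union_right.2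
    ⟨dj v a fun k e => no k (e ▸ aB), dj v b fun k e => no k (e ▸ bB)⟩), Set.ncard_union_eq (dj a b ab)] at tot
  have p1 := dv v qv v0
  have p2 := dv a (p.qB a aB) a0
  have p3 := dv b (p.qB b bB) b0
  have z : ∀ u : V, (MulAction.orbit Γ u).ncard ≠ 0 := fun u e => by have := os u; simp [e] at this
  have := z v
  have := z a
  have := z b
  omega

end H21.YM
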